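import Cfsg.Agent.B85C.A
import Cfsg.Agent.B84H.A

/-! # Groups with an involution whose centralizer is a quotient of `GU₂(q)`: the abstract setting -/

set_option autoImplicit false
set_option linter.unusedSectionVars false

namespace Cfsg.Agent.B85C

open Cfsg Cfsg.Agent.GT Cfsg.Agent.Char Cfsg.Agent.B84C Subgroup Function
open scoped ComplexConjugate Classical

variable {H C K X G : Type*} [Group H] [CommGroup C] [CommGroup K] [CommGroup X] [Group G]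

/-- `φ` maps the model onto the centralizer of `t₁`, and `g` permutes the involutions `t₁, t₂, t₃` of the diagonal
four-group cyclically. -/
structure Hy (m : Mo H C K X) (φ : H →* G) (g : G) : Prop where
  range : φ.range = C1[φ (m.dg (m.e, m.e))]
  ker : ∀ A, φ A = 1 → ∃ c : C, Odd (orderOf c) ∧ A = m.dg (c, c)
  g1 : g * φ (m.dg (m.e, m.e)) * g⁻¹ = φ (m.dg (1, m.e))
  g2 : g * φ (m.dg (1, m.e)) * g⁻¹ = φ (m.dg (m.e, 1))

/-- no nontrivial element of the centre of the centralizer commutes with `g` -/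
def D1 (m : Mo H C K X) (φ : H →* G) (g : G) : Prop := ∀ a : C, Commute g (φ (m.dg (a, a))) → φ (m.dg (a, a)) = 1

variable {m : Mo H C K X} {φ : H →* G} {g x : G} {A B : H} {a b c d : C}

theorem dg_mul (m : Mo H C K X) (a b c d : C) : m.dg (a, b) * m.dg (c, d) = m.dg (a * c, b * d) :=
  (map_mul m.dg (a, b) (c, d)).symm

theorem dg_one (m : Mo H C K X) : m.dg (1, 1) = 1 := map_one m.dg

theorem t_sq (e1 : a * a = 1) (e2 : b * b = 1) : φ (m.dg (a, b)) * φ (m.dg (a, b)) = 1 := by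
  rw [← map_mul, dg_mul, e1, e2, dg_one, map_one]

theorem tt : φ (m.dg (m.e, m.e)) * φ (m.dg (m.e, m.e)) = 1 := t_sq m.ee m.ee

theorem uu : φ (m.dg (1, m.e)) * φ (m.dg (1, m.e)) = 1 := t_sq (mul_one 1) m.ee

theorem T_comm {p p' : C × C} : Commute (φ (m.dg p)) (φ (m.dg p')) := Commute.map (m.dg_comm p p') φ

namespace Hy

variable (h : Hy m φ g)
include h

theorem ker_det (e : φ A = 1) (hd : m.det A = 1) : A = 1 := by
  obtain ⟨c, ⟨k, hk⟩, rfl⟩ := h.ker A e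
  have := pow_orderOf_eq_one c
  rw [m.det_dg] at hd
  rw [hk, pow_succ, pow_mul, sq, hd, one_pow, one_mul] at this
  rw [this, dg_one]

theorem commute_iff : Commute (φ A) (φ B) ↔ Commute A B :=
  ⟨fun e => mul_inv_eq_one.1 (h.ker_det (by rw [map_mul, map_inv, map_mul, map_mul, e.eq, mul_inv_cancel])
    (by rw [map_mul, map_inv, map_mul, map_mul, mul_comm (m.det A), mul_inv_cancel])), fun e => e.map φ⟩

theorem conj_iff {D : H} (hd : m.det B = m.det D) : φ A * φ B * (φ A)⁻¹ = φ D ↔ A * B * A⁻¹ = D :=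
  ⟨fun e => mul_inv_eq_one.1 (h.ker_det (by simp only [map_mul, map_inv, e, mul_inv_cancel])
    (by simp only [map_mul, map_inv, hd, mul_inv_cancel_comm, mul_inv_cancel])),
    fun e => by rw [← e, map_mul, map_mul, map_inv]⟩

theorem dg_eq_one : φ (m.dg (a, b)) = 1 → a = b ∧ Odd (orderOf a) := fun e => by
  obtain ⟨c, o, e⟩ := h.ker _ e
  obtain ⟨rfl, rfl⟩ := Prod.mk.inj (m.dg_inj e)
  exact ⟨rfl, o⟩

theorem t1_ne : φ (m.dg (m.e, m.e)) ≠ 1 := fun e => not_odd m.ee m.e1 (mem_zpowers _) (h.dg_eq_one e).2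

theorem u_ne : φ (m.dg (1, m.e)) ≠ 1 := fun e => m.e1 (h.dg_eq_one e).1.symm

theorem t3 : φ (m.dg (m.e, m.e)) * φ (m.dg (1, m.e)) = φ (m.dg (m.e, 1)) := by rw [← map_mul, dg_mul]; simp [m.ee]

theorem g3 : g * φ (m.dg (m.e, 1)) * g⁻¹ = φ (m.dg (m.e, m.e)) := by
  rw [← h.t3, ← conj_mul, h.g1, h.g2, ← map_mul, dg_mul]; simp

theorem q3 : B84H.Q3 (φ (m.dg (m.e, m.e))) (φ (m.dg (1, m.e))) g :=
  ⟨tt, h.t1_ne, T_comm, h.g1, h.g2.trans h.t3.symm⟩

theorem cent : Commute x (φ (m.dg (m.e, m.e))) ↔ ∃ A, φ A = x := by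
  rw [← MonoidHom.mem_range, h.range, mem_cent1]; rfl

theorem cent_t2 : Commute (φ A) (φ (m.dg (1, m.e))) ↔ ∃ a b, A = m.dg (a, b) := by
  rw [h.commute_iff]
  refine ⟨fun e => ?_, by rintro ⟨a, b, rfl⟩; exact m.dg_comm _ _⟩
  obtain ⟨p, rfl⟩ := m.cent_dg _ _ _ m.e1.symm e
  exact ⟨p.1, p.2, rfl⟩

/-- the centralizer of the four-group is the torus -/
theorem cent_U : Commute x (φ (m.dg (m.e, m.e))) ∧ Commute x (φ (m.dg (1, m.e))) ↔ ∃ a b, x = φ (m.dg (a, b)) := by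
  constructor
  · rintro ⟨e1, e2⟩
    obtain ⟨A, rfl⟩ := h.cent.1 e1
    obtain ⟨a, b, rfl⟩ := h.cent_t2.1 e2
    exact ⟨a, b, rfl⟩
  · rintro ⟨a, b, rfl⟩
    exact ⟨T_comm, T_comm⟩

theorem g_T (a b : C) : ∃ c d, g * φ (m.dg (a, b)) * g⁻¹ = φ (m.dg (c, d)) :=
  h.cent_U.1 ⟨h.g3 ▸ (TT.commute_conj_iff g).2 T_comm, h.g1 ▸ (TT.commute_conj_iff g).2 T_comm⟩

theorem g_T' (a b : C) : ∃ c d, g⁻¹ * φ (m.dg (a, b)) * g = φ (m.dg (c, d)) :=
  h.cent_U.1 ⟨(TT.commute_conj_iff g).1 (by rw [h.g1]; simpa [mul_assoc] using T_comm),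
    (TT.commute_conj_iff g).1 (by rw [h.g2]; simpa [mul_assoc] using T_comm)⟩

theorem g_cube : ∃ a b, g ^ 3 = φ (m.dg (a, b)) := by
  have e : ∀ y, g ^ 3 * y * (g ^ 3)⁻¹ = g * (g * (g * y * g⁻¹) * g⁻¹) * g⁻¹ := fun y => by
    rw [pow_three]; group
  exact h.cent_U.1 ⟨mul_inv_eq_iff_eq_mul.1 (by rw [e, h.g1, h.g2, h.g3]),
    mul_inv_eq_iff_eq_mul.1 (by rw [e, h.g2, h.g3, h.g1])⟩

omit h in
theorem w_dg (a b : C) : φ m.ww * φ (m.dg (a, b)) * (φ m.ww)⁻¹ = φ (m.dg (b, a)) := by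
  rw [← map_inv, m.ww_inv, ← map_mul, ← map_mul, m.wd]

/-- `w g` is a reflection -/
theorem wg_sq : ∃ a b, φ m.ww * g * (φ m.ww * g) = φ (m.dg (a, b)) := by
  have e : ∀ y, φ m.ww * g * (φ m.ww * g) * y * (φ m.ww * g * (φ m.ww * g))⁻¹ =
      φ m.ww * (g * (φ m.ww * (g * y * g⁻¹) * (φ m.ww)⁻¹) * g⁻¹) * (φ m.ww)⁻¹ := fun y => by
    simp only [mul_inv_rev, mul_assoc]
  exact h.cent_U.1 ⟨mul_inv_eq_iff_eq_mul.1 (by rw [e, h.g1, w_dg, h.g3, w_dg]),
    mul_inv_eq_iff_eq_mul.1 (by rw [e, h.g2, w_dg, h.g2, w_dg])⟩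

/-- every involution of the centralizer is the image of an involution -/
theorem invol (e : φ A * φ A = 1) (e1 : φ A ≠ 1) :
    φ A = φ (m.dg (m.e, m.e)) ∨ ∃ B, φ A = φ B * φ (m.dg (1, m.e)) * (φ B)⁻¹ := by
  obtain ⟨c, ⟨k, hk⟩, o⟩ := h.ker (A * A) (by rw [map_mul, e])
  have n : φ (A ^ (2 * k + 1)) = φ A := by rw [map_pow, pow_succ, pow_mul, sq, e, one_pow, one_mul]
  rw [← n] at e1 ⊢
  refine (m.invol (A ^ (2 * k + 1)) ?_ fun n => e1 (by rw [n, map_one])).imp (congrArg φ)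
    fun ⟨B, n⟩ => ⟨B, by rw [n, map_mul, map_mul, map_inv]⟩
  rw [← (Commute.refl A).mul_pow, o, ← map_pow, Prod.pow_mk, ← hk, pow_orderOf_eq_one, dg_one]

theorem invol_conj (e : x * x = 1) (e1 : x ≠ 1) (c : Commute x (φ (m.dg (m.e, m.e)))) :
    IsConj (φ (m.dg (m.e, m.e))) x := by
  obtain ⟨A, rfl⟩ := h.cent.1 c
  rcases h.invol e e1 with n | ⟨B, n⟩
  · rw [n]
  · exact isConj_iff.2 ⟨φ B * g, by rw [n, ← h.g1]; group⟩

theorem card_H : Nat.card C1[φ (m.dg (m.e, m.e))] * Nat.card φ.ker = Nat.card H := by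
  rw [← h.range, ← index_ker, φ.ker.index_mul_card]

theorem odd_det (o : Odd (orderOf (φ A))) : Odd (orderOf (m.det A)) := by
  obtain ⟨c, oc, e⟩ := h.ker (A ^ orderOf (φ A)) (by rw [map_pow, pow_orderOf_eq_one])
  refine (o.mul oc).of_dvd_nat (orderOf_dvd_of_pow_eq_one ?_)
  rw [pow_mul, ← map_pow, e, m.det_dg, mul_pow, pow_orderOf_eq_one, mul_one]

theorem odd_of (o : Odd (orderOf (φ A))) : Odd (orderOf A) := by
  obtain ⟨c, oc, e⟩ := h.ker (A ^ orderOf (φ A)) (by rw [map_pow, pow_orderOf_eq_one])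
  refine (o.mul oc).of_dvd_nat (orderOf_dvd_of_pow_eq_one ?_)
  rw [pow_mul, e, ← map_pow, Prod.pow_mk, pow_orderOf_eq_one, dg_one]

variable [Finite G]

theorem exists_syl_cent : ∃ S, IsPiHallOf {2} S ⊤ ∧ S ≤ C1[φ (m.dg (m.e, m.e))] := by
  obtain ⟨S, hS, le⟩ := exists_syl_ge (p := 2) (M := ⊤) (Q := zpowers (φ (m.dg (m.e, m.e)))) Nat.prime_two
    (PG.isPGroup_zpowers_of_pow_eq_one (k := 1) (by rw [pow_one, sq, tt])) le_top
  have p := syl_isPGroup Nat.prime_two hS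
  have := inf_cent_ne_bot_of_isPGroup Nat.prime_two p p le_normalizer fun e =>
    h.t1_ne (e.le (le (mem_zpowers _)))
  obtain ⟨z, hz, o⟩ := exists_mem_orderOf_eq Nat.prime_two
    (prime_dvd_card_of_isPGroup Nat.prime_two (p.to_le inf_le_left) this)
  obtain ⟨k, e⟩ := isConj_iff.1 (h.invol_conj (TT.mul_self_of_orderOf o) (TT.ne_one_of_orderOf o)
    (hz.2 _ (le (mem_zpowers _))).symm)
  refine ⟨cj[k⁻¹] S, syl_conj_mem hS (le_normalizer trivial), conj_le_iff_forall.2 fun y hy => mem_cent1.2 ?_⟩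
  refine (TT.commute_conj_iff k).1 ?_
  rw [e]
  simpa [mul_assoc] using (show Commute y z from hz.2 y hy)

/-- the centralizer has odd index -/
theorem odd_index : Odd (C1[φ (m.dg (m.e, m.e))]).index := by
  obtain ⟨S, hS, le⟩ := h.exists_syl_cent
  have := syl_not_dvd Nat.prime_two hS
  rw [relIndex_top_right] at this
  exact Nat.not_even_iff_odd.1 fun e => this ((even_iff_two_dvd.1 e).trans (index_dvd_of_le le))

/-- one class of involutions -/
theorem conj_t (e : x * x = 1) (e1 : x ≠ 1) : IsConj (φ (m.dg (m.e, m.e))) x := by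
  obtain ⟨S, hS, le⟩ := h.exists_syl_cent
  obtain ⟨k, -, n⟩ := syl_exists_conj_le Nat.prime_two hS (Q := zpowers x)
    (PG.isPGroup_zpowers_of_pow_eq_one (k := 1) (by rw [pow_one, sq, e])) le_top
  exact (h.invol_conj (x := k * x * k⁻¹) (by rw [conj_mul, e]; simp) (by simpa using e1)
    (mem_cent1.1 (le (conj_le_iff_forall.1 n x (mem_zpowers x))))).trans (isConj_iff.2 ⟨k⁻¹, by group⟩)

end Hy

end Cfsg.Agent.B85C
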