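import Cfsg.Agent.B84V.W

/-! # An abstract model of `GU₂(q)` and its principal series -/

set_option autoImplicit false
set_option linter.unusedSectionVars false

namespace Cfsg.Agent.B85C

open Cfsg Cfsg.Agent.GT Cfsg.Agent.Char Cfsg.Agent.B84C Subgroup Function
open scoped ComplexConjugate Classical

/-- The group `H = GU₂(q)`: `C` is cyclic of order `q + 1`, `dg` is the anisotropic torus, `kk` the torus of order
`q² - 1`, `xx` the root group. -/
structure Mo (H C K X : Type*) [Group H] [CommGroup C] [CommGroup K] [CommGroup X] where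
  q : ℕ
  e : C
  dg : C × C →* H
  kk : K →* H
  xx : X →* H
  jj : C →* K
  act : K →* MulAut X
  det : H →* C
  ww : H
  wk : H
  odd : Odd q
  q3 : 3 ≤ q
  cC : Nat.card C = q + 1
  cK : Nat.card K = (q + 1) * (q - 1)
  cX : Nat.card X = q
  cycK : IsCyclic K
  ee : e * e = 1
  e1 : e ≠ 1
  dg_inj : Injective dg
  kj : ∀ c, kk (jj c) = dg (c, c)
  cen : ∀ c A, dg (c, c) * A = A * dg (c, c)
  ww2 : ww * ww = 1
  wd : ∀ a b, ww * dg (a, b) * ww = dg (b, a)
  det_dg : ∀ a b, det (dg (a, b)) = a * b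
  kx : ∀ k b, kk k * xx b = xx (act k b) * kk k
  sd1 : ∀ b k, xx b * kk k = 1 → b = 1 ∧ k = 1
  fpf : ∀ k b, act k b = b → b = 1 ∨ k ∈ jj.range
  wks : ∀ k, kk k * wk = wk * kk (k ^ q)⁻¹
  bru : ∀ h, (∃ b k, h = xx b * kk k) ∨ ∃ c b k, h = xx c * wk * (xx b * kk k)
  wx : ∀ c b k, xx c * wk = wk * (xx b * kk k) → c = 1
  wB : ∀ b k, wk ≠ xx b * kk k
  cent_dg : ∀ a d A, a ≠ d → A * dg (a, d) = dg (a, d) * A → A ∈ dg.range
  invol : ∀ A, A * A = 1 → A ≠ 1 → A = dg (e, e) ∨ ∃ B, A = B * dg (1, e) * B⁻¹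

namespace Mo

variable {H C K X : Type*} [Group H] [CommGroup C] [CommGroup K] [CommGroup X] (m : Mo H C K X)

/-- the action of the Weyl group on the torus `K` -/
def ss : K →* K := invMonoidHom.comp (powMonoidHom m.q)

theorem ss_apply (k : K) : m.ss k = (k ^ m.q)⁻¹ := rfl

theorem kk_inj : Injective m.kk := (injective_iff_map_eq_one _).2 fun k e => (m.sd1 1 k (by simpa using e)).2

theorem xx_inj : Injective m.xx := (injective_iff_map_eq_one _).2 fun b e => (m.sd1 b 1 (by simpa using e)).1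

theorem jj_inj : Injective m.jj := fun a b e => by
  have := congrArg m.kk e
  rw [m.kj, m.kj] at this
  exact (Prod.ext_iff.1 (m.dg_inj this)).1

theorem powC (c : C) : c ^ (m.q + 1) = 1 := m.cC ▸ pow_card_eq_one'

theorem ss_jj (c : C) : m.ss (m.jj c) = m.jj c := by
  rw [ss_apply, ← map_pow, ← map_inv]
  exact congrArg _ (inv_eq_of_mul_eq_one_right (by rw [← pow_succ, m.powC]))

theorem powK (k : K) : k ^ (m.q * m.q) = k := by
  have := m.q3
  obtain ⟨r, e⟩ : ∃ r, m.q = r + 1 := ⟨m.q - 1, by omega⟩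
  have c := m.cK
  rw [e] at c
  rw [show m.q * m.q = Nat.card K + 1 by rw [c, e]; simp; ring, pow_succ, pow_card_eq_one', one_mul]

theorem ss_ss (k : K) : m.ss (m.ss k) = k := by
  rw [ss_apply, ss_apply, inv_pow, inv_inv, ← pow_mul, m.powK]

theorem act_jj (c : C) (b : X) : m.act (m.jj c) b = b := m.xx_inj (by
  have := m.kx (m.jj c) b
  rw [m.kj, m.cen] at this
  exact (mul_right_cancel this).symm)

theorem ww_inv : m.ww⁻¹ = m.ww := inv_eq_of_mul_eq_one_right m.ww2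

include m in
theorem finC : Finite C := Nat.finite_of_card_ne_zero (by rw [m.cC]; omega)
include m in
theorem finK : Finite K := Nat.finite_of_card_ne_zero (by
  have := m.q3; rw [m.cK]; exact Nat.mul_ne_zero (by omega) (by omega))
include m in
theorem finX : Finite X := Nat.finite_of_card_ne_zero (by have := m.q3; rw [m.cX]; omega)

theorem mem_jj {k : K} (h : k ^ (m.q + 1) = 1) : k ∈ m.jj.range := by
  have := m.finK
  have := m.finC
  have := m.cycK
  have c : Nat.card m.jj.range = m.q + 1 := by rw [← m.cC, Nat.card_congr (MonoidHom.ofInjective m.jj_inj).toEquiv]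
  have e : m.jj.range = (powMonoidHom (m.q + 1) : K →* K).ker := by
    refine eq_of_le_of_card_ge (by rintro _ ⟨a, rfl⟩; simp [← map_pow, m.powC]) ?_
    rw [c, IsCyclic.card_powMonoidHom_ker]
    exact Nat.gcd_le_right _ (by omega)
  rw [e]; exact h

theorem sqC {a : C} (h : a * a = 1) : a = 1 ∨ a = m.e := by
  have := m.finK
  have := m.cycK
  by_cases n : a = 1
  · exact .inl n
  obtain ⟨γ, hγ⟩ := IsCyclic.exists_generator (α := K)
  exact .inr (m.jj_inj (inv_uniq (x := γ) (by rw [← map_mul, h, map_one]) (by simpa [map_eq_one_iff _ m.jj_inj])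
    (by rw [← map_mul, m.ee, map_one]) (by simpa [map_eq_one_iff _ m.jj_inj] using m.e1) (hγ _) (hγ _)))

theorem e_inv : m.e⁻¹ = m.e := inv_eq_of_mul_eq_one_right m.ee

theorem dg_comm (d d' : C × C) : m.dg d * m.dg d' = m.dg d' * m.dg d := by rw [← map_mul, ← map_mul, mul_comm]

theorem sc_of_cen {a d : C} (h : m.dg (a, d) * m.ww = m.ww * m.dg (a, d)) : a = d := by
  have := m.wd a d
  rw [← h, mul_assoc, m.ww2, mul_one] at this
  exact (Prod.ext_iff.1 (m.dg_inj this)).1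

theorem conj_dg {d d' : C × C} {x : H} (h : m.dg d' = x⁻¹ * m.dg d * x) : d' = d ∨ d' = d.swap := by
  obtain ⟨a, b⟩ := d
  by_cases n : a = b
  · subst n
    rw [mul_assoc, m.cen, inv_mul_cancel_left] at h
    exact .inl (m.dg_inj h)
  have n' : d'.1 ≠ d'.2 := fun e => n (m.sc_of_cen (by
    have : m.dg (a, b) = m.dg (d'.1, d'.1) := by
      rw [← mul_inv_cancel_right (m.dg (d'.1, d'.1)) x, m.cen, show (d'.1, d'.1) = d' from Prod.ext rfl e, h]; group
    rw [this, m.cen]))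
  obtain ⟨⟨c, c'⟩, e⟩ := m.cent_dg _ _ (x⁻¹ * m.dg (1, m.e) * x) n' (by
    rw [show (d'.1, d'.2) = d' from rfl, h]
    simp only [mul_assoc, mul_inv_cancel_left]
    rw [← mul_assoc (m.dg _), m.dg_comm, mul_assoc])
  have k : (c * c, c' * c') = (1 : C × C) := m.dg_inj (by
    rw [← Prod.mk_mul_mk, map_mul, e, map_one]
    simp only [mul_assoc, mul_inv_cancel_left]
    rw [← mul_assoc (m.dg _), ← map_mul]; simp [m.ee, Prod.mk_one_one])
  have dt : c * c' = m.e := by rw [← m.det_dg, e]; simp [m.det_dg]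
  have T : ∀ y, y * m.dg (1, m.e) = m.dg (1, m.e) * y → y⁻¹ * m.dg (a, b) * y = m.dg (a, b) := fun y k => by
    obtain ⟨p, rfl⟩ := m.cent_dg _ _ y m.e1.symm k
    rw [mul_assoc, m.dg_comm, inv_mul_cancel_left]
  rcases m.sqC (Prod.ext_iff.1 k).1 with rfl | rfl
  · rw [one_mul] at dt
    subst dt
    exact .inl (m.dg_inj (h.trans (T x (by nth_rw 1 [e]; group))))
  · obtain rfl : c' = 1 := by simpa using dt
    refine .inr (m.dg_inj ?_)
    have := T (x * m.ww) (by
      rw [mul_assoc, ← mul_one (m.ww * _), ← m.ww2, ← mul_assoc (m.ww * _), m.wd, e]; simp [mul_assoc])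
    rw [h, show (a, b).swap = (b, a) from rfl, ← m.wd a b]
    nth_rw 2 [← this]
    rw [mul_inv_rev, m.ww_inv]
    simp [← mul_assoc, m.ww2, mul_assoc _ m.ww m.ww]

/-- the Borel subgroup -/
def sd : X ⋊[m.act] K →* H := SemidirectProduct.lift m.xx m.kk fun k => MonoidHom.ext fun b => by
  simp [m.kx k b]

theorem sd_mk (b : X) (k : K) : m.sd ⟨b, k⟩ = m.xx b * m.kk k := by
  simp [sd, SemidirectProduct.lift]

theorem sd_inj : Injective m.sd := (injective_iff_map_eq_one _).2 fun ⟨b, k⟩ e => by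
  obtain ⟨rfl, rfl⟩ := m.sd1 b k (m.sd_mk b k ▸ e); rfl

theorem mem_B {y : H} : y ∈ m.sd.range ↔ ∃ b k, y = m.xx b * m.kk k :=
  ⟨fun ⟨⟨b, k⟩, e⟩ => ⟨b, k, by rw [← e, sd_mk]⟩, fun ⟨b, k, e⟩ => ⟨⟨b, k⟩, by rw [e, sd_mk]⟩⟩

theorem mk_B (b : X) (k : K) : m.xx b * m.kk k ∈ m.sd.range := m.mem_B.2 ⟨b, k, rfl⟩

/-- the projection of the Borel subgroup onto the torus -/
noncomputable def pr : m.sd.range →* K :=
  SemidirectProduct.rightHom.comp (MonoidHom.ofInjective m.sd_inj).symm.toMonoidHom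

theorem pr_eq {y : m.sd.range} {b : X} {k : K} (h : y.1 = m.xx b * m.kk k) : m.pr y = k := by
  obtain ⟨p, rfl⟩ := (MonoidHom.ofInjective m.sd_inj).surjective y
  have : p = ⟨b, k⟩ := m.sd_inj (h.trans (m.sd_mk b k).symm)
  simp [pr, this]

theorem not_B {a d : C} (n : a ≠ d) (x : H) : x⁻¹ * m.dg (a, d) * x ∉ m.sd.range := fun h => by
  have := m.finX
  obtain ⟨b, k, e⟩ := m.mem_B.1 h
  have p : (⟨_, h⟩ : m.sd.range) ^ (m.q + 1) = 1 := Subtype.ext (by
    show (x⁻¹ * m.dg (a, d) * x) ^ (m.q + 1) = 1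
    rw [show x⁻¹ * m.dg (a, d) * x = x⁻¹ * m.dg (a, d) * x⁻¹⁻¹ by simp, conj_pow, ← map_pow]
    simp [m.powC, Prod.mk_one_one])
  obtain ⟨c, rfl⟩ := m.mem_jj (k := k) (by rw [← m.pr_eq (y := ⟨_, h⟩) e, ← map_pow, p, map_one])
  have p' : (x⁻¹ * m.dg (a, d) * x) ^ (m.q + 1) = 1 := congrArg Subtype.val p
  rw [e, m.kj, Commute.mul_pow (m.cen _ _).symm, ← map_pow, ← map_pow, pow_succ b, ← m.cX, pow_card_eq_one',
    m.cX] at p'
  simp [m.powC, Prod.mk_one_one, map_eq_one_iff _ m.xx_inj] at p'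
  rw [p', map_one, one_mul, m.kj] at e
  rcases m.conj_dg e.symm with k | k
  · exact n ((Prod.ext_iff.1 k).1.symm.trans (Prod.ext_iff.1 k).2)
  · exact n ((Prod.ext_iff.1 k).2.symm.trans (Prod.ext_iff.1 k).1)

/-- coset representatives -/
def rr : Option X → H
  | none => 1
  | some c => m.xx c * m.wk

theorem rr_bij : Bijective fun p : Option X × m.sd.range => m.rr p.1 * p.2 := by
  constructor
  · rintro ⟨o, b⟩ ⟨o', b'⟩ e
    have k : ∀ c (b b' : m.sd.range), (b : H) ≠ m.xx c * m.wk * b' := fun c b b' e => by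
      obtain ⟨x, k, e'⟩ := m.mem_B.1 (mul_mem (inv_mem (m.mk_B c 1)) (mul_mem b.2 (inv_mem b'.2)))
      exact m.wB x k (by rw [← e', e]; simp [mul_assoc])
    obtain rfl : o = o' := by
      cases o <;> cases o' <;> simp only [rr, one_mul] at e
      · rfl
      · exact (k _ _ _ e).elim
      · exact (k _ _ _ e.symm).elim
      · rename_i c c'
        obtain ⟨x, k, e'⟩ := m.mem_B.1 (mul_mem b'.2 (inv_mem b.2))
        exact congrArg _ (inv_mul_eq_one.1 (m.wx (c'⁻¹ * c) x k (by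
          rw [← e', map_mul, map_inv, mul_assoc, inv_mul_eq_iff_eq_mul, ← mul_assoc, ← mul_assoc, ← e]; simp))).symm
    exact Prod.ext rfl (Subtype.ext (mul_left_cancel e))
  · intro g
    rcases m.bru g with ⟨b, k, rfl⟩ | ⟨c, b, k, rfl⟩
    exacts [⟨(none, ⟨_, m.mk_B b k⟩), one_mul _⟩, ⟨(some c, ⟨_, m.mk_B b k⟩), rfl⟩]

variable [Fintype H] [Fintype C] [Fintype K] [Fintype X] {f f' : K → ℂ}

/-- the function induced from the Borel subgroup -/
noncomputable def II (f : K → ℂ) : H → ℂ := indFun m.sd.range fun b => f (m.pr b)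

theorem II_B (b : X) (k : K) :
    m.II f (m.xx b * m.kk k) = f k + ∑ c, if c⁻¹ * b * m.act k c = 1 then f (m.ss k) else 0 := by
  rw [II, indFun_trans _ ((isClassFunction_of_comm f).comp m.pr) m.rr m.rr_bij, Fintype.sum_option]
  simp only [rr, inv_one, one_mul, mul_one]
  rw [extendByZero_of_mem _ _ (m.mk_B b k), m.pr_eq rfl]
  refine congrArg _ (Finset.sum_congr rfl fun c _ => ?_)
  have e : (m.xx c * m.wk)⁻¹ * (m.xx b * m.kk k) * (m.xx c * m.wk) =
      m.wk⁻¹ * m.xx (c⁻¹ * b * m.act k c) * m.wk * m.kk (m.ss k) := by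
    rw [ss_apply, mul_assoc _ m.wk, ← m.wks, map_mul, map_mul, map_inv, mul_inv_rev]
    simp only [mul_assoc]
    rw [← mul_assoc (m.kk k), m.kx, mul_assoc]
  rw [e]
  split_ifs with h
  · have : m.wk⁻¹ * m.xx (c⁻¹ * b * m.act k c) * m.wk * m.kk (m.ss k) = m.xx 1 * m.kk (m.ss k) := by simp [h]
    rw [extendByZero_of_mem _ _ (this ▸ m.mk_B _ _), m.pr_eq this]
  · refine extendByZero_of_not_mem _ _ fun n => ?_
    obtain ⟨x, l, e'⟩ := m.mem_B.1 (mul_mem n (inv_mem (m.mk_B 1 (m.ss k))))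
    exact h (m.wx _ x l (by rw [← e']; simp [mul_assoc]))

theorem cardX : (Fintype.card X : ℂ) = m.q := by rw [← m.cX, Nat.card_eq_fintype_card]

theorem II_j (b : X) (a : C) :
    m.II f (m.xx b * m.kk (m.jj a)) = (if b = 1 then (m.q + 1 : ℂ) else 1) * f (m.jj a) := by
  simp only [II_B, act_jj, ss_jj, inv_mul_cancel_comm]
  split_ifs <;> simp [m.cardX]; ring

theorem aff_inj (b : X) {k : K} (h : k ∉ m.jj.range) : Injective fun c => c⁻¹ * b * m.act k c := fun c c' e => by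
  refine mul_inv_eq_one.1 ((m.fpf k _ ?_).resolve_right h)
  rw [map_mul, map_inv, mul_inv_eq_iff_eq_mul, ← mul_right_inj (c⁻¹ * b),
    show c⁻¹ * b * m.act k c = c'⁻¹ * b * m.act k c' from e]
  simp only [mul_comm c⁻¹ b, mul_comm c'⁻¹ b, mul_assoc, inv_mul_cancel_left]

theorem II_k (b : X) {k : K} (h : k ∉ m.jj.range) : m.II f (m.xx b * m.kk k) = f k + f (m.ss k) := by
  have i := m.aff_inj b h
  obtain ⟨c, e : _ = _⟩ := (Finite.injective_iff_surjective.1 i) 1
  rw [II_B, Finset.sum_eq_single c (fun c' _ n => if_neg fun e' => n (i (e'.trans e.symm))) (by simp), if_pos e]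

theorem II_sc (a : C) : m.II f (m.dg (a, a)) = (m.q + 1) * f (m.jj a) := by
  simpa [m.kj] using m.II_j (f := f) 1 a

theorem II_one : m.II f 1 = (m.q + 1) * f 1 := by simpa [Prod.mk_one_one] using m.II_sc (f := f) 1

theorem II_out {y : H} (h : ∀ x, x⁻¹ * y * x ∉ m.sd.range) : m.II f y = 0 := by
  rw [II, indFun_eq_ind]
  exact ind_eq_zero_of_forall fun x b e => (h x (e ▸ b.2)).elim

theorem II_dg {a d : C} (h : a ≠ d) : m.II f (m.dg (a, d)) = 0 := m.II_out (m.not_B h)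

theorem II_sub : m.II (f - f') = m.II f - m.II f' := indFun_sub _ _ _

theorem II_class : IsClassFunction _ (m.II f) := isClassFunction_indFun _ _

theorem II_virt (h : IsGeneralizedCharacter _ f) : IsGeneralizedCharacter _ (m.II f) := (h.comp m.pr).indFun

/-- the Borel subgroup as a product -/
noncomputable def eB : K × X ≃ m.sd.range :=
  (Equiv.prodComm _ _).trans (SemidirectProduct.equivProd.symm.trans (MonoidHom.ofInjective m.sd_inj).toEquiv)

theorem eB_val (p : K × X) : (m.eB p : H) = m.xx p.2 * m.kk p.1 := m.sd_mk _ _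

theorem card_B : Nat.card m.sd.range = Nat.card K * m.q := by rw [← Nat.card_congr m.eB, Nat.card_prod, m.cX]

theorem card_H : Nat.card H = (m.q + 1) * (Nat.card K * m.q) := by
  rw [← card_B, ← Nat.card_eq_of_bijective _ m.rr_bij, Nat.card_prod, ← m.cX]; simp

theorem q_ne : (m.q : ℂ) ≠ 0 := Nat.cast_ne_zero.2 (by have := m.q3; omega)

theorem q1_ne : (m.q : ℂ) + 1 ≠ 0 := Nat.cast_add_one_ne_zero _

theorem q1_ne' : (m.q : ℂ) - 1 ≠ 0 := sub_ne_zero.2 (Nat.cast_ne_one.2 (by have := m.q3; omega))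

theorem card_K : (Nat.card K : ℂ) = (m.q + 1) * (m.q - 1) := by
  have := m.q3
  rw [m.cK, Nat.cast_mul, Nat.cast_sub (by omega)]; simp

theorem card_D : (Nat.card (C × C) : ℂ) = (m.q + 1) ^ 2 := by rw [Nat.card_prod, m.cC]; push_cast; ring

theorem ci_II {χ : H → ℂ} (hχ : IsClassFunction _ χ) {k : K → ℂ}
    (h : ∀ a, ∑ b, χ (m.xx b * m.kk a) = m.q * k a) : ⟪m.II f, χ⟫ = ⟪f, k⟫ := by
  rw [II, ci_indFun_left _ _ hχ, ci_def, ci_def, ← m.eB.sum_comp, card_B, Fintype.sum_prod_type, Nat.cast_mul, mul_inv,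
    mul_assoc, Finset.mul_sum]
  refine congrArg _ (Finset.sum_congr rfl fun a _ => ?_)
  rw [Finset.sum_congr rfl (g := fun b => f a * conj (χ (m.xx b * m.kk a))) fun b _ => by
    rw [m.pr_eq (m.eB_val _), eB_val], ← Finset.mul_sum, ← map_sum, h, map_mul, map_natCast, mul_left_comm,
    inv_mul_cancel_left₀ m.q_ne]

theorem ci_II_II : ⟪m.II f, m.II f'⟫ = ⟪f, f'⟫ + ⟪f, f' ∘ m.ss⟫ := by
  rw [← ci_add_right]
  refine m.ci_II m.II_class fun a => ?_
  simp only [II_B, Finset.sum_add_distrib]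
  rw [Finset.sum_comm]
  simp [mul_assoc, inv_mul_eq_one, ← mul_inv_eq_iff_eq_mul, m.cardX, mul_add]

theorem ci_II_one : ⟪m.II f, fun _ => 1⟫ = ⟪f, fun _ : K => 1⟫ :=
  m.ci_II (k := fun _ => 1) (isClassFunction_const 1) fun a => by simp [m.cardX]

theorem index_u : ((C1[m.dg (1, m.e)]).index : ℂ) = m.q * (m.q - 1) := by
  have e : C1[m.dg (1, m.e)] = m.dg.range := le_antisymm (fun A hA => m.cent_dg _ _ _ m.e1.symm (mem_cent1.1 hA)) (by
    rintro _ ⟨p, rfl⟩; exact mem_cent1.2 (m.dg_comm _ _))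
  have := congrArg (Nat.cast (R := ℂ)) m.dg.range.card_mul_index
  rw [← Nat.card_congr (MonoidHom.ofInjective m.dg_inj).toEquiv, m.card_H] at this
  push_cast at this
  rw [m.card_K, m.card_D] at this
  rw [e]
  exact mul_left_cancel₀ (pow_ne_zero 2 m.q1_ne) (by linear_combination this)

/-- the Steinberg character -/
noncomputable def St : H → ℂ := m.II (fun _ => 1) - fun _ => 1

theorem St_ci : ⟪m.St, fun _ => 1⟫ = 0 := by rw [St, ci_sub_left, ci_II_one, ci_one_one, ci_one_one, sub_self]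

theorem St_virt : IsGeneralizedCharacter _ m.St := (m.II_virt virt_one).sub virt_one

theorem St_sirr : IsSIrr _ m.St := m.St_virt.isSIrr_of_ci_self (by
  nth_rw 2 [St]
  rw [ci_sub_right, St_ci, St, ci_sub_left, ci_II_II, virt_one.ci_comm (m.II_virt virt_one), ci_II_one]
  simp [ci_one_one, comp_def])

theorem St_one : m.St 1 = m.q := by simp [St, II_one]

theorem St_dg {a d : C} (h : a ≠ d) : m.St (m.dg (a, d)) = -1 := by simp [St, m.II_dg h]

theorem cZ_St : cZ (m.dg (1, m.e)) m.St = m.q * (m.q - 1) ^ 2 := by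
  have := cZ_sirr (t := m.dg (1, m.e)) m.St_sirr
  rw [St_one, m.St_dg m.e1.symm, index_u] at this
  exact mul_left_cancel₀ m.q_ne (by linear_combination this)

theorem II_mul (a : C) (h : ∀ c, f (c * m.jj a) = f c) (y : H) : m.II f (y * m.dg (a, a)) = m.II f y := by
  rw [II, indFun_eq_ind]
  have n : m.dg (a, a) = m.xx 1 * m.kk (m.jj a) := by simp [m.kj]
  have n' : m.dg (a, a) ∈ m.sd.range := n ▸ m.mk_B _ _
  exact B84V.ind_mul_central (f := m.sd.range.subtype) ⟨_, n'⟩ (m.cen a) (fun b => by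
    rw [map_mul, m.pr_eq (y := ⟨_, n'⟩) n, h]) y

theorem j_mem (b : X) (a : C) : m.kk (m.jj a) ∈ zpowers (m.xx b * m.kk (m.jj a)) := ⟨(m.q * m.q : ℕ), by
  simp only [zpow_natCast]
  rw [Commute.mul_pow (by rw [m.kj]; exact (m.cen _ _).symm), ← map_pow, ← map_pow, m.powK, pow_mul, ← m.cX,
    pow_card_eq_one']; simp⟩

theorem II_supp {y : H} (n : m.II f y ≠ 0) :
    ∃ x k, (f k ≠ 0 ∨ f (m.ss k) ≠ 0) ∧ m.kk k ∈ zpowers (x⁻¹ * y * x) ∧
      (k ∉ m.jj.range → m.kk k = x⁻¹ * y * x) := by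
  obtain ⟨x, h⟩ : ∃ x, x⁻¹ * y * x ∈ m.sd.range := by_contra fun k => n (m.II_out (by simpa using k))
  obtain ⟨b, k, e⟩ := m.mem_B.1 h
  rw [← m.II_class.conj' y x, e] at n
  by_cases j : k ∈ m.jj.range
  · obtain ⟨a, rfl⟩ := j
    rw [II_j] at n
    exact ⟨x, _, .inl (right_ne_zero_of_mul n), e ▸ m.j_mem b a, fun k => (k ⟨a, rfl⟩).elim⟩
  · obtain ⟨c, e' : c⁻¹ * b * m.act k c = 1⟩ := (Finite.injective_iff_surjective.1 (m.aff_inj b j)) 1
    have : m.kk k = (x * m.xx c)⁻¹ * y * (x * m.xx c) := by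
      rw [show (x * m.xx c)⁻¹ * y * (x * m.xx c) = (m.xx c)⁻¹ * (x⁻¹ * y * x) * m.xx c by group, e, mul_assoc,
        mul_assoc, m.kx, ← mul_assoc, ← mul_assoc, ← map_inv, ← map_mul, ← map_mul, e']; simp
    rw [m.II_k b j] at n
    exact ⟨_, k, by by_contra! z; exact n (by simp [z]), this ▸ mem_zpowers _, fun _ => this⟩

end Mo

end Cfsg.Agent.B85C
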