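import Cfsg.Agent.B85C.A

/-! # The series of `GU₂(q)` attached to the anisotropic torus -/

set_option autoImplicit false
set_option linter.unusedSectionVars false

namespace Cfsg.Agent.B85C

open Cfsg Cfsg.Agent.GT Cfsg.Agent.Char Cfsg.Agent.B84C Cfsg.Agent.B84V Subgroup Function
open scoped ComplexConjugate Classical

theorem virt_ext {C K : Type*} [CommGroup C] [CommGroup K] [Fintype C] [Fintype K] {j : C →* K} (hj : Injective j)
    {g : C → ℂ} (h : IsGeneralizedCharacter _ g) : ∃ θ, IsGeneralizedCharacter K θ ∧ ∀ c, θ (j c) = g c := by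
  have k : ∀ χ ∈ Irr C, ∃ θ, IsGeneralizedCharacter K θ ∧ ∀ c, θ (j c) = χ c := fun χ hχ => by
    obtain ⟨μ, e⟩ := (mem_Irr.1 hχ).exists_hom_of_comm
    obtain ⟨ν, n⟩ := MonoidHom.domRestrict_surjective ℂ j.range
      (μ.comp (MonoidHom.ofInjective hj).symm.toMonoidHom)
    refine ⟨ch ν, ch_virt ν, fun c => ?_⟩
    have := DFunLike.congr_fun n (MonoidHom.ofInjective hj c)
    simp only [MonoidHom.comp_apply, MulEquiv.coe_toMonoidHom, MulEquiv.symm_apply_apply] at this
    rw [e]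
    exact congrArg Units.val this
  choose! θ v e using k
  refine ⟨∑ χ ∈ Irr C, zi g χ • θ χ, Finset.sum_induction _ _ (fun _ _ => IsGeneralizedCharacter.add) virt_zero
    fun χ hχ => (v χ hχ).zsmul _, fun c => ?_⟩
  conv_rhs => rw [h.eq_sum_zi]
  simp only [Finset.sum_apply, Pi.smul_apply]
  exact Finset.sum_congr rfl fun χ hχ => by rw [e χ hχ]

namespace Mo

variable {H C K X : Type*} [Group H] [CommGroup C] [CommGroup K] [CommGroup X] (m : Mo H C K X)
  [Fintype H] [Fintype C] [Fintype K] [Fintype X] {g g' : C → ℂ} {f f' : C × C → ℂ}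

theorem St_j (b : X) (a : C) : m.St (m.xx b * m.kk (m.jj a)) = if b = 1 then (m.q : ℂ) else 0 := by
  rw [St, Pi.sub_apply, II_j]; split_ifs <;> simp

theorem St_k (b : X) {k : K} (h : k ∉ m.jj.range) : m.St (m.xx b * m.kk k) = 1 := by simp [St, m.II_k b h]

/-- the degenerate Gelfand-Graev function with central part `g` -/
noncomputable def AA (g : C → ℂ) : H → ℂ := m.II (extend m.jj g 0) * (m.St - fun _ => 1)

theorem AA_class : IsClassFunction _ (m.AA g) :=
  m.II_class.mul (m.St_virt.isClassFunction.sub (isClassFunction_const 1))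

theorem AA_j (b : X) (a : C) :
    m.AA g (m.xx b * m.kk (m.jj a)) = (if b = 1 then (m.q + 1 : ℂ) * (m.q - 1) else -1) * g a := by
  rw [AA, Pi.mul_apply, Pi.sub_apply, St_j, II_j, m.jj_inj.extend_apply]
  split_ifs <;> ring

theorem AA_k (b : X) {k : K} (h : k ∉ m.jj.range) : m.AA g (m.xx b * m.kk k) = 0 := by
  rw [AA, Pi.mul_apply, Pi.sub_apply, m.St_k b h]; simp

theorem AA_eq {θ : K → ℂ} (h : ∀ c, θ (m.jj c) = g c) : m.AA g = m.II θ * (m.St - fun _ => 1) := by
  funext y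
  by_cases n : ∃ x, x⁻¹ * y * x ∈ m.sd.range
  · obtain ⟨x, n⟩ := n
    obtain ⟨b, k, e⟩ := m.mem_B.1 n
    rw [← m.AA_class.conj' y x, ← (m.II_class.mul (m.St_virt.isClassFunction.sub (isClassFunction_const 1))).conj' y x,
      e]
    by_cases j : k ∈ m.jj.range
    · obtain ⟨a, rfl⟩ := j
      rw [AA_j, Pi.mul_apply, Pi.sub_apply, St_j, II_j, h]
      split_ifs <;> ring
    · rw [m.AA_k b j, Pi.mul_apply, Pi.sub_apply, m.St_k b j]; simp
  · push Not at n
    simp [AA, m.II_out n]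

theorem AA_virt (h : IsGeneralizedCharacter _ g) : IsGeneralizedCharacter _ (m.AA g) := by
  obtain ⟨θ, v, e⟩ := virt_ext m.jj_inj h
  exact m.AA_eq e ▸ (m.II_virt v).mul (m.St_virt.sub virt_one)

theorem AA_sc (a : C) : m.AA g (m.dg (a, a)) = (m.q + 1) * (m.q - 1) * g a := by
  simpa [m.kj] using m.AA_j (g := g) 1 a

theorem AA_dg {a d : C} (h : a ≠ d) : m.AA g (m.dg (a, d)) = 0 := by simp [AA, m.II_dg h]

theorem AA_sub : m.AA (g - g') = m.AA g - m.AA g' := by
  rw [m.AA_eq (θ := extend m.jj g 0 - extend m.jj g' 0) fun c => by simp [m.jj_inj.extend_apply], II_sub, sub_mul]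
  rfl

theorem sum_j (k : K → ℂ) : (∑ c, if c ∈ m.jj.range then k c else 0) = ∑ a, k (m.jj a) := by
  rw [← Finset.sum_filter]
  exact (Finset.sum_nbij m.jj (by simp) (m.jj_inj.injOn) (fun c hc => by simpa using hc) fun _ _ => rfl).symm

/-- inner products with `AA g` only involve the centre times the root group -/
theorem ci_AA {χ : H → ℂ} (hχ : IsClassFunction _ χ) {k : C → ℂ}
    (h : ∀ a, m.q * χ (m.dg (a, a)) - ∑ b, χ (m.xx b * m.dg (a, a)) = m.q * (m.q - 1) * k a) :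
    ⟪m.AA g, χ⟫ = ⟪g, k⟫ := by
  have a1 := m.q1_ne
  have a2 := m.q1_ne'
  rw [AA, ci_mul_left, m.ci_II ((m.St_virt.isClassFunction.sub (isClassFunction_const 1)).conjFun.mul hχ)
    (k := extend m.jj (fun a => (m.q - 1) * k a) 0), ci_def, ci_def, m.card_K, m.cC]
  · rw [Finset.sum_congr rfl (g := fun c => if c ∈ m.jj.range then extend m.jj g 0 c *
      conj (extend m.jj (fun a => (m.q - 1) * k a) 0 c) else 0) fun c _ => by
        split_ifs with n
        · rfl
        · rw [extend_apply' _ _ _ n]; simp, sum_j, Finset.mul_sum, Finset.mul_sum]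
    refine Finset.sum_congr rfl fun a _ => ?_
    simp only [m.jj_inj.extend_apply, map_mul, map_sub, map_natCast, map_one]
    push_cast
    field_simp
  · intro c
    by_cases j : c ∈ m.jj.range
    · obtain ⟨a, rfl⟩ := j
      simp only [Pi.mul_apply, conjFun_apply, Pi.sub_apply, St_j, m.jj_inj.extend_apply]
      rw [← mul_assoc, ← h, m.kj, Finset.sum_congr rfl (g := fun b => (if b = 1 then m.q * χ (m.dg (a, a)) else 0) -
        χ (m.xx b * m.dg (a, a))) fun b _ => by split_ifs with e <;> [(simp [e]; ring); simp]]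
      simp
    · simp [m.St_k _ j, extend_apply' _ _ _ j]

theorem ind_sc (a : C) : ind m.dg f (m.dg (a, a)) = m.q * (m.q - 1) * f (a, a) := by
  have a1 := m.q1_ne
  rw [ind_central m.dg_inj _ (m.cen a), m.card_H, m.card_D]
  push_cast
  rw [m.card_K]
  field_simp

theorem ind_dg {a d : C} (h : a ≠ d) : ind m.dg f (m.dg (a, d)) = f (a, d) + f (d, a) :=
  ind_two m.dg_inj (fun e => h (Prod.mk.inj e).1) (u := m.ww) (by rw [m.ww_inv, m.wd]) (fun _ _ e => m.conj_dg e)
    fun x => ⟨fun e => m.cent_dg a d x h (by nth_rw 1 [e]; group), by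
      rintro ⟨p, rfl⟩; rw [mul_assoc, m.dg_comm, inv_mul_cancel_left]⟩

theorem ind_x {b : X} (h : b ≠ 1) (a : C) : ind m.dg f (m.xx b * m.dg (a, a)) = 0 :=
  ind_eq_zero_of_forall fun x ⟨c, d⟩ e => by
    by_cases n : c = d
    · subst n
      have : m.xx b * m.dg (a, a) = m.dg (c, c) := by
        rw [← mul_inv_cancel_right (m.dg (c, c)) x, m.cen, e]; group
      rw [← m.kj, ← m.kj, ← mul_inv_eq_one, mul_assoc, ← map_inv, ← map_mul] at this
      exact (h (m.sd1 _ _ this).1).elim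
    · exact (m.not_B n x⁻¹ (by rw [e, ← m.kj]; simpa [mul_assoc] using m.mk_B b (m.jj a))).elim

/-- the Deligne-Lusztig function of the anisotropic torus -/
noncomputable def RR (f : C × C → ℂ) : H → ℂ := ind m.dg f - m.AA fun c => f (c, c)

theorem RR_class : IsClassFunction _ (m.RR f) := (isClassFunction_ind _ _).sub m.AA_class

theorem RR_virt (h : IsGeneralizedCharacter _ f) : IsGeneralizedCharacter _ (m.RR f) :=
  (h.ind _).sub (m.AA_virt (h.comp ((MonoidHom.id C).prod (MonoidHom.id C))))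

theorem RR_sub : m.RR (f - f') = m.RR f - m.RR f' := by
  rw [RR, RR, RR, ind_sub, sub_sub_sub_comm, ← AA_sub]; rfl

theorem RR_sc (a : C) : m.RR f (m.dg (a, a)) = (1 - m.q) * f (a, a) := by
  rw [RR, Pi.sub_apply, ind_sc, AA_sc]; ring

theorem RR_one : m.RR f 1 = (1 - m.q) * f 1 := by simpa [Prod.mk_one_one] using m.RR_sc (f := f) 1

theorem RR_dg {a d : C} (h : a ≠ d) : m.RR f (m.dg (a, d)) = f (a, d) + f (d, a) := by
  rw [RR, Pi.sub_apply, m.ind_dg h, m.AA_dg h, sub_zero]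

theorem RR_x {b : X} (h : b ≠ 1) (a : C) : m.RR f (m.xx b * m.dg (a, a)) = f (a, a) := by
  rw [RR, Pi.sub_apply, m.ind_x h, ← m.kj, AA_j, if_neg h]; ring

theorem ci_diag (k : C × C → ℂ) (k' : C → ℂ) :
    ⟪k, fun d => if d.1 = d.2 then (m.q + 1) * k' d.1 else 0⟫ = ⟪fun c => k (c, c), k'⟫ := by
  have a1 := m.q1_ne
  rw [ci_def, ci_def, m.card_D, m.cC, Fintype.sum_prod_type, Finset.mul_sum, Finset.mul_sum]
  refine Finset.sum_congr rfl fun a _ => ?_
  simp only [apply_ite conj, map_zero, mul_ite, mul_zero, Finset.sum_ite_eq, Finset.mem_univ, if_true, map_mul,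
    map_add, map_natCast, map_one]
  push_cast
  field_simp

theorem sum_x (u v : ℂ) : (∑ b : X, if b = 1 then u else v) = u + (m.q - 1) * v := by
  rw [Finset.sum_congr rfl (g := fun b => v + if b = 1 then u - v else 0) fun b _ => by split_ifs <;> simp]
  simp [Finset.sum_add_distrib, m.cardX]; ring

theorem ci_RR_RR : ⟪m.RR f, m.RR f'⟫ = ⟪f, f'⟫ + ⟪f, f' ∘ Prod.swap⟫ := by
  nth_rw 1 [RR]
  rw [ci_sub_left, ci_ind_left _ _ m.RR_class, m.ci_AA m.RR_class (k := fun a => -f' (a, a)), ← m.ci_diag,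
    ← ci_sub_right, ← ci_add_right]
  · refine congrArg _ (funext fun ⟨a, d⟩ => ?_)
    by_cases n : a = d
    · subst n; simp [RR_sc]; ring
    · simp [m.RR_dg n, n]
  · intro a
    rw [Finset.sum_congr rfl (g := fun b => if b = 1 then (1 - m.q) * f' (a, a) else f' (a, a)) fun b _ => by
      split_ifs with e
      · simp [e, RR_sc]
      · exact m.RR_x e a, m.sum_x, RR_sc]
    ring

theorem det_x (b : X) : m.det (m.xx b) = 1 := by
  obtain ⟨k, n⟩ : ∃ k, k ∉ m.jj.range := by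
    by_contra! h
    have := Nat.card_eq_of_bijective _ ⟨m.jj_inj, h⟩
    have := m.q3
    have := m.cC
    have := m.cK
    obtain ⟨r, e⟩ : ∃ r, m.q = r + 3 := ⟨m.q - 3, by omega⟩
    simp_all
  obtain ⟨c, e : c⁻¹ * 1 * m.act k c = b⟩ := (Finite.injective_iff_surjective.1 (m.aff_inj 1 n)) b
  have := congrArg m.det (m.kx k c)
  rw [map_mul, map_mul, mul_comm, mul_left_inj] at this
  rw [← e, mul_one, map_mul, map_mul, ← this, map_inv, map_inv, inv_mul_cancel]

theorem ci_RR_det (η : C → ℂ) : ⟪m.RR f, fun y => η (m.det y)⟫ = ⟪f, fun d => η (d.1 * d.2)⟫ := by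
  rw [RR, ci_sub_left, ci_ind_left _ _ ((isClassFunction_of_comm η).comp _),
    m.ci_AA ((isClassFunction_of_comm η).comp _) (k := 0) fun a => by simp [det_x, m.cardX], ci_zero_right, sub_zero]
  exact congrArg _ (funext fun ⟨a, d⟩ => by simp [m.det_dg])

theorem ci_RR_one : ⟪m.RR f, fun _ => 1⟫ = ⟪f, fun _ => 1⟫ := m.ci_RR_det fun _ => 1

theorem RR_mul (a : C) (h : ∀ d, f (d * (a, a)) = f d) (y : H) : m.RR f (y * m.dg (a, a)) = m.RR f y := by
  simp only [RR, AA, St, Pi.sub_apply, Pi.mul_apply]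
  rw [ind_mul_central _ (m.cen a) h, m.II_mul (f := fun _ => 1) a (fun _ => rfl), m.II_mul a fun c => ?_]
  by_cases j : c ∈ m.jj.range
  · obtain ⟨c, rfl⟩ := j
    rw [← map_mul, m.jj_inj.extend_apply, m.jj_inj.extend_apply]
    exact h (c, c)
  · rw [extend_apply' _ _ _ j, extend_apply' _ _ _ fun n : _ ∈ m.jj.range => j ((mul_mem_cancel_right (show m.jj a ∈ m.jj.range from ⟨a, rfl⟩)).1 n)]; rfl

theorem RR_supp {y : H} (n : m.RR f y ≠ 0) : ∃ x d, f d ≠ 0 ∧ m.dg d ∈ zpowers (x⁻¹ * y * x) := by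
  by_cases e : ind m.dg f y = 0
  · rw [RR, Pi.sub_apply, e, zero_sub, neg_ne_zero] at n
    obtain ⟨x, k, n, h, -⟩ := m.II_supp (left_ne_zero_of_mul n)
    have j : k ∈ m.jj.range := by_contra fun j => n.elim (fun n => n (extend_apply' _ _ _ j)) fun n =>
      n (extend_apply' _ _ _ fun ⟨a, e⟩ => j ⟨a, by rw [← m.ss_ss k, ← e, ss_jj]⟩)
    obtain ⟨a, rfl⟩ := j
    rw [ss_jj, or_self, m.jj_inj.extend_apply] at n
    exact ⟨x, _, n, m.kj a ▸ h⟩
  · obtain ⟨x, d, e, n⟩ := ind_ne e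
    exact ⟨x, d, n, e ▸ mem_zpowers _⟩

theorem cZ_RR {μ : C × C →* ℂˣ} (hμ : ch μ ∘ Prod.swap ≠ ch μ) :
    cZ (m.dg (1, m.e)) (m.RR (ch μ)) = 2 * m.q ^ 2 * (1 - m.q) * (1 + ch μ (m.e, m.e)) := by
  have := cZ_sirr (t := m.dg (1, m.e)) ((m.RR_virt (ch_virt μ)).isSIrr_of_ci_self (by
    rw [ci_RR_RR, (ch_irr μ).ci_self, (ch_irr μ).ci_of_ne (show IsIrrCharacter _ (ch μ ∘ Prod.swap) from
      ch_irr (μ.comp (MulEquiv.prodComm.toMonoidHom))) hμ.symm, add_zero]))
  rw [RR_one, index_u, m.RR_dg m.e1.symm] at this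
  have k : ∀ x y, ch μ x * ch μ y = ch μ (x * y) := fun x y => by simp [ch]
  have k1 : ch μ 1 = 1 := by simp [ch]
  have k2 := k (1, m.e) (1, m.e)
  have k3 := k (m.e, 1) (m.e, 1)
  have k4 := k (1, m.e) (m.e, 1)
  simp only [Prod.mk_mul_mk, mul_one, m.ee, one_mul, Prod.mk_one_one, k1] at k2 k3 k4
  refine mul_left_cancel₀ m.q1_ne' ?_
  rw [k1] at this
  linear_combination -this - (m.q * (m.q - 1) : ℂ) ^ 2 * (k2 + k3 + 2 * k4)

theorem RR_const : m.RR (fun _ => 1) = (fun _ => 1) - m.St := by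
  have v := (m.RR_virt virt_one).sub (virt_one.sub m.St_virt)
  have k : ⟪m.RR fun _ => 1, m.St⟫ = -1 := by
    rw [RR, ci_sub_left, ci_ind_left _ _ m.St_virt.isClassFunction,
      m.ci_AA m.St_virt.isClassFunction (k := fun _ => 1) fun a => by
        simp only [← m.kj, St_j, m.sum_x]
        have := m.St_j 1 a
        simp only [map_one, one_mul, if_true] at this
        rw [this]; ring, ← m.ci_diag (fun _ => 1), ← ci_sub_right,
      show (-1 : ℂ) = ⟪fun _ : C × C => 1, -fun _ => 1⟫ by rw [ci_neg_right, ci_one_one]]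
    refine congrArg _ (funext fun ⟨a, d⟩ => ?_)
    by_cases n : a = d
    · have := m.St_j 1 a
      simp only [map_one, one_mul, if_true, m.kj] at this
      subst n; simp [this]
    · simp [m.St_dg n, n]
  refine sub_eq_zero.1 (ci_self_eq_zero.1 ?_)
  simp only [ci_sub_left, ci_sub_right, ci_RR_RR, ci_RR_one, k, virt_one.ci_comm (m.RR_virt virt_one),
    m.St_virt.ci_comm (m.RR_virt virt_one), virt_one.ci_comm m.St_virt, St_ci, ci_one_one, m.St_sirr.ci_self, comp_def]
  norm_num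

theorem cZ_det {η : C →* ℂˣ} : cZ (m.dg (1, m.e)) (fun y => ch η (m.det y)) = (m.q * (m.q - 1) : ℂ) ^ 2 := by
  have := cZ_sirr (t := m.dg (1, m.e)) (ch_irr (η.comp m.det)).isSIrr
  rw [index_u] at this
  simp [ch, m.det_dg, ← Units.val_pow_eq_pow_val, ← map_pow, sq m.e, m.ee] at this
  exact this

end Mo

end Cfsg.Agent.B85C
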