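import Cfsg.Agent.B85C.H
import Cfsg.Agent.B85C.B

/-! # Induction from the elements whose cyclic group contains the central involution -/

set_option autoImplicit false
set_option linter.unusedSectionVars false

namespace Cfsg.Agent.B85C

open Cfsg Cfsg.Agent.GT Cfsg.Agent.Char Subgroup Function
open Cfsg.Agent.B84C (cI cZ cN cZ_ind sum_fib ind_TI zp_conj not_odd inv_uniq exists_inv)
open scoped ComplexConjugate Classical

variable {H C K X G : Type*} [Group H] [CommGroup C] [CommGroup K] [CommGroup X] [Group G] [Fintype H] [Fintype G]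
  {m : Mo H C K X} {φ : H →* G} {g x : G} {θ θ' ψ ψ' : H → ℂ} {y : H}

/-- the central involution lies in the cyclic group generated by `φ y` -/
def Ap (m : Mo H C K X) (φ : H →* G) (y : H) : Prop := φ (m.dg (m.e, m.e)) ∈ zpowers (φ y)

/-- class functions factoring through `φ` -/
structure Gd (φ : H →* G) (θ : H → ℂ) : Prop where
  cl : IsClassFunction _ θ
  inv : ∀ a b, φ a = φ b → θ a = θ b

theorem TI_A (h : Hy m φ g) {k : G} (h1 : φ (m.dg (m.e, m.e)) ∈ zpowers x) (h2 : φ (m.dg (m.e, m.e)) ∈ zpowers (k⁻¹ * x * k)) :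
    k ∈ φ.range := by
  have := inv_uniq (by simpa using TT.conj_mul_self k⁻¹ tt) (by simpa [mul_assoc, inv_mul_eq_one] using h.t1_ne) tt
    h.t1_ne (zp_conj k h1) h2
  exact h.cent.1 (show k * _ = _ * k by nth_rw 1 [← this]; group)

theorem phi0_val (h : Hy m φ g) (hθ : Gd φ θ) (s : ∀ y, θ y ≠ 0 → Ap m φ y) (hy : Ap m φ y) : ind φ θ (φ y) = θ y :=
  ind_TI φ hθ.cl hθ.inv y fun _ b e n => TI_A h hy (e ▸ s b n)

theorem phi0_zero (s : ∀ y, θ y ≠ 0 → Ap m φ y)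
    (hx : ∀ k, φ (m.dg (m.e, m.e)) ∉ zpowers (k⁻¹ * x * k)) : ind φ θ x = 0 :=
  ind_eq_zero_of_forall fun k a e => by_contra fun n => hx k (e ▸ s a n)

theorem phi0_odd (h : Hy m φ g) (s : ∀ y, θ y ≠ 0 → Ap m φ y) (hx : Odd (orderOf x)) : ind φ θ x = 0 :=
  phi0_zero s fun k e => not_odd tt h.t1_ne e (by
    rwa [show k⁻¹ * x * k = MulAut.conj k⁻¹ x by simp, MulEquiv.orderOf_eq])

theorem phi0_ci (h : Hy m φ g) (hθ : Gd φ θ') (s : ∀ y, θ y ≠ 0 → Ap m φ y) (s' : ∀ y, θ' y ≠ 0 → Ap m φ y) :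
    ⟪ind φ θ, ind φ θ'⟫ = ⟪θ, θ'⟫ := by
  rw [ci_ind_left _ _ (isClassFunction_ind _ _), ci_def, ci_def]
  refine congrArg _ (Finset.sum_congr rfl fun y _ => ?_)
  by_cases n : θ y = 0
  · simp [n]
  · rw [phi0_val h hθ s' (s y n)]

theorem phi0_one : ⟪ind φ θ, fun _ => 1⟫ = ⟪θ, fun _ => 1⟫ := ci_ind_left _ _ (isClassFunction_const 1)

theorem det_u {a : H} (e : IsConj (m.dg (1, m.e)) a) : m.det a = m.e := by
  rw [← isConj_iff_eq.1 (m.det.map_isConj e), m.det_dg, one_mul]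

/-- indicator of the noncentral involutions of the centralizer -/
noncomputable def cJ (m : Mo H C K X) (φ : H →* G) (v : G) : ℂ := ∑ a, if φ a = v then cI (m.dg (1, m.e)) a else 0

theorem cJ_zero (h : Hy m φ g) (n : ¬IsConj (φ (m.dg (m.e, m.e))) x) : cJ m φ x = 0 := Finset.sum_eq_zero fun _ _ =>
  ite_eq_right_iff.2 fun e => if_neg fun c => n (e ▸ (isConj_iff.2 ⟨g, h.g1⟩).trans (φ.map_isConj c))

theorem sq_t (h : Hy m φ g) (c : IsConj (φ (m.dg (m.e, m.e))) x) : x * x = 1 ∧ x ≠ 1 := by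
  obtain ⟨k, rfl⟩ := isConj_iff.1 c
  exact ⟨TT.conj_mul_self k tt, by simpa using h.t1_ne⟩

theorem cJ_one (h : Hy m φ g) (c : IsConj (φ (m.dg (m.e, m.e))) x) (k : Commute x (φ (m.dg (m.e, m.e))))
    (n : x ≠ φ (m.dg (m.e, m.e))) : cJ m φ x = 1 := by
  obtain ⟨A, rfl⟩ := h.cent.1 k
  obtain ⟨B, e⟩ := (h.invol (sq_t h c).1 (sq_t h c).2).resolve_left n
  have c' : IsConj (m.dg (1, m.e)) (B * m.dg (1, m.e) * B⁻¹) := isConj_iff.2 ⟨B, rfl⟩
  rw [← map_inv, ← map_mul, ← map_mul] at e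
  generalize B * m.dg (1, m.e) * B⁻¹ = C at e c'
  rw [cJ, Finset.sum_eq_single C _ fun k => (k (Finset.mem_univ _)).elim, if_pos e.symm, cI, if_pos c']
  refine fun b _ nb => ite_eq_right_iff.2 fun e' => if_neg fun cb => nb (mul_inv_eq_one.1 (h.ker_det ?_ ?_))
  · rw [map_mul, map_inv, e', e, mul_inv_cancel]
  · rw [map_mul, map_inv, det_u cb, det_u c', mul_inv_cancel]

theorem cI_cJ (h : Hy m φ g) (hy : Ap m φ y) (v : G) :
    cI (φ (m.dg (m.e, m.e))) v * cI (φ (m.dg (m.e, m.e))) (v⁻¹ * φ y) = cJ m φ v * cJ m φ (v⁻¹ * φ y) := by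
  set t := φ (m.dg (m.e, m.e)) with ht
  by_cases c : IsConj t v
  swap
  · simp only [cI, if_neg c, cJ_zero h c, zero_mul]
  by_cases c' : IsConj t (v⁻¹ * φ y)
  swap
  · simp only [cI, if_neg c', cJ_zero h c', mul_zero]
  have ty : Commute t (φ y) := commute_of_mem_zpowers hy (mem_zpowers _)
  have iv : v⁻¹ * φ y * v = (φ y)⁻¹ := by
    refine eq_inv_of_mul_eq_one_left ?_
    have := (sq_t h c').1
    rw [TT.inv_of_sq (sq_t h c).1] at this ⊢
    rwa [mul_assoc]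
  have vt : Commute v t := h.cent.2 (TI_A h hy (by rw [iv, zpowers_inv]; exact hy))
  have n1 : ∀ w, IsConj t w → t * w ≠ φ y := fun w cw e => by
    have tw : Commute t w := by
      rw [eq_inv_mul_of_mul_eq e]; exact (Commute.refl t).inv_right.mul_right ty
    rcases (TT.mem_zpowers_of_sq (e ▸ TT.mul_self_of_commute tt (sq_t h cw).1 tw)).1 hy with a | a
    exacts [h.t1_ne a, (sq_t h cw).2 (mul_left_cancel (a := t) (by rw [e, mul_one]; exact a.symm))]
  rw [cJ_one h c vt, cJ_one h c' (vt.inv_left.mul_left ty.symm), cI, cI, if_pos c, if_pos c']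
  · exact fun e : _ = t => n1 v c (by rw [← vt.eq, ← e, mul_inv_cancel_left])
  · exact fun e : _ = t => n1 _ c' (by rw [e, mul_inv_cancel_left])

theorem sum_cJ (f : G → ℂ) : ∑ v, cJ m φ v * f v = ∑ a, cI (m.dg (1, m.e)) a * f (φ a) := by
  simp only [cJ, Finset.sum_mul, ite_mul, zero_mul]
  rw [Finset.sum_comm]
  simp

theorem phi0_cZ (h : Hy m φ g) (hθ : Gd φ θ) (s : ∀ y, θ y ≠ 0 → Ap m φ y) :
    cZ (φ (m.dg (m.e, m.e))) (ind φ θ) = C1[φ (m.dg (m.e, m.e))].index * cZ (m.dg (1, m.e)) θ := by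
  have k1 : ∀ y, θ y * cN (φ (m.dg (m.e, m.e))) (φ y) = ∑ a, cI (m.dg (1, m.e)) a * (θ y * cJ m φ (φ (a⁻¹ * y))) := fun y => by
    by_cases n : θ y = 0
    · simp [n]
    simp only [cN, cI_cJ h (s y n), mul_left_comm _ (θ y), ← Finset.mul_sum, sum_cJ, map_mul, map_inv]
  have k2 : ∀ a, ∑ y, θ y * cJ m φ (φ (a⁻¹ * y)) = Nat.card φ.ker * ∑ b, cI (m.dg (1, m.e)) b * θ (a * b) := fun a => by
    rw [← Equiv.sum_comp (Equiv.mulLeft a)]
    simp only [Equiv.coe_mulLeft, inv_mul_cancel_left, cJ, Finset.mul_sum]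
    rw [Finset.sum_comm]
    refine Finset.sum_congr rfl fun b _ => ?_
    rw [← sum_fib φ b]
    refine Finset.sum_congr rfl fun y _ => ?_
    by_cases e : φ y = φ b
    · rw [if_pos e, if_pos e.symm, mul_comm, hθ.inv (a * y) (a * b) (by rw [map_mul, map_mul, e])]
    · rw [if_neg e, if_neg (Ne.symm e), mul_zero]
  have c1 := h.card_H
  have c2 := C1[φ (m.dg (m.e, m.e))].card_mul_index
  rw [cZ_ind, Finset.sum_congr rfl fun y _ => k1 y, Finset.sum_comm, ← c1, ← c2, cZ]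
  simp only [← Finset.mul_sum, k2]
  simp only [Finset.mul_sum]
  rw [Finset.sum_comm]
  have := card_ne_zero_complex C1[φ (m.dg (m.e, m.e))]
  have := card_ne_zero_complex φ.ker
  refine Finset.sum_congr rfl fun _ _ => Finset.sum_congr rfl fun _ _ => ?_
  push_cast
  field_simp

end Cfsg.Agent.B85C
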