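import Cfsg.Agent.B85C.T
import Cfsg.Agent.B84C.D

/-! # Two families of virtual characters of small norm -/

set_option autoImplicit false
set_option linter.unusedSectionVars false

namespace Cfsg.Agent.B85C

open Cfsg Cfsg.Agent.GT Cfsg.Agent.Char Subgroup Function
open Cfsg.Agent.B84C (cI cZ cN ch ch_virt ch_irr ci_ch Ev cZ_add cZ_sub)
open scoped ComplexConjugate Classical

variable {H C K X G : Type*} [Group H] [CommGroup C] [CommGroup K] [CommGroup X] [Group G] [Fintype H] [Fintype C]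
  [Fintype K] [Fintype X] {m : Mo H C K X} {φ : H →* G} {g : G}

theorem exists_ev {K : Type*} [CommGroup K] [Finite K] {e : K} (ee : e * e = 1) (h : e ≠ 1) :
    ∃ η : K →* ℂˣ, Ev η ∧ η e = -1 := by
  obtain ⟨χ, k⟩ := CommGroup.exists_apply_ne_one_of_hasEnoughRootsOfUnity K ℂ h
  obtain ⟨a, b, o, n⟩ := Nat.exists_eq_two_pow_mul_odd (Nat.card_pos (α := K)).ne'
  refine ⟨χ ^ b, fun x k => ?_, ?_⟩
  · rw [MonoidHom.pow_apply, ← map_pow, orderOf_dvd_iff_pow_eq_one.1 ((Nat.Coprime.pow_right a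
      (Nat.coprime_two_right.2 k)).dvd_of_dvd_mul_left (n ▸ orderOf_dvd_natCard x)), map_one]
  · rw [MonoidHom.pow_apply, ((Units.inv_eq_self_iff _).1 (by
      rw [← map_inv, inv_eq_of_mul_eq_one_right ee])).resolve_left k, o.neg_one_pow]

theorem lift_T (l : C × C →* ℂˣ) (k : ∀ a b, φ (m.dg (a, b)) = 1 → l (a, b) = 1) :
    ∃ χ : Tor m φ →* ℂˣ, ∀ d, χ (pT m φ d) = l d :=
  ⟨(pT m φ).liftOfSurjective pT_surj ⟨l, fun d e => k d.1 d.2 (congrArg Subtype.val e)⟩, fun _ =>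
    MonoidHom.liftOfRightInverse_comp_apply _ _ _ _ _⟩

/-- `a` is the character of the torus given by `η ∘ det` -/
def Dt (η : C →* ℂˣ) (a : Tor m φ →* ℂˣ) : Prop := Ev η ∧ ∀ d, a (pT m φ d) = η (d.1 * d.2)

variable (h : Hy m φ g) {η η' : C →* ℂˣ} {a a' : Tor m φ →* ℂˣ} {k k' : Tor m φ → ℂ} {y : H}
include h

theorem exists_Dt (e : Ev η) : ∃ a : Tor m φ →* ℂˣ, Dt η a :=
  (lift_T (η.comp mulMonoidHom) fun a b n => e (a * b) (m.det_dg a b ▸ h.odd_det (by simp [n]))).imp fun _ k => ⟨e, k⟩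

theorem Dt.ev (d : Dt η a) : Ev a := fun x o => by
  obtain ⟨c, rfl⟩ := pT_surj x
  exact (d.2 c).trans (d.1 _ (m.det_dg c.1 c.2 ▸ h.odd_det (by rwa [← pT_val, orderOf_coe])))

omit h in
theorem Dt.s (d : Dt η a) (x : Tor m φ) : a (sT m φ x) = a x := by
  obtain ⟨c, rfl⟩ := pT_surj x
  rw [sT_pT, d.2, d.2, mul_comm]; rfl

/-- the series attached to a function on the torus -/
noncomputable def IT (k : Tor m φ → ℂ) : H → ℂ := m.RR fun d => k (pT m φ d)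

theorem IT_inv (k : Tor m φ → ℂ) (x y : H) (e : φ x = φ y) : IT k x = IT k y := by
  obtain ⟨c, -, n⟩ := h.ker (y⁻¹ * x) (by rw [map_mul, map_inv, e, inv_mul_cancel])
  have n1 : pT m φ (c, c) = 1 := Subtype.ext (by rw [pT_val, ← n, map_mul, map_inv, e, inv_mul_cancel]; rfl)
  rw [inv_mul_eq_iff_eq_mul.1 n, IT, m.RR_mul c fun d => by rw [map_mul, n1, mul_one]]

omit h in
theorem IT_odd (o : ∀ x, Odd (orderOf x) → k x = 0) (y : H) (e : Odd (orderOf (φ y))) : IT k y = 0 := by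
  by_contra n
  obtain ⟨x, d, n, j, l⟩ := m.RR_supp n
  refine n (o _ (e.of_dvd_nat (orderOf_dvd_of_pow_eq_one (Subtype.ext ?_))))
  have := congrArg φ l
  simp only [map_zpow, map_mul, map_inv] at this
  rw [coe_pow, show (pT m φ d : G) = φ (m.dg d) from rfl, ← this, ← zpow_natCast, zpow_comm, zpow_natCast,
    ← inv_inv (φ x), inv_inv (φ x)⁻¹, conj_pow, pow_orderOf_eq_one]
  simp

omit h

theorem IT_dg {a b : C} (n : a ≠ b) : IT k (m.dg (a, b)) = k (pT m φ (a, b)) + k (sT m φ (pT m φ (a, b))) := by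
  rw [IT, m.RR_dg n, sT_pT]; rfl

theorem IT_sub : IT (k - k') = IT k - IT k' := m.RR_sub

theorem IT_add : IT (k + k') = IT k + IT k' := by rw [← sub_eq_iff_eq_add, ← IT_sub, add_sub_cancel_right]

theorem cZ_IT (n : ∃ x, a (sT m φ x) ≠ a x) : cZ (m.dg (1, m.e)) (IT (ch a)) =
    2 * m.q ^ 2 * (1 - m.q) * (1 + ch a (pT m φ (m.e, m.e))) :=
  m.cZ_RR (μ := a.comp (pT m φ)) fun e => by
    obtain ⟨x, n⟩ := n
    obtain ⟨c, rfl⟩ := pT_surj x
    exact n (Units.ext (sT_pT (m := m) (φ := φ) c ▸ congrFun e c))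

variable [Fintype G]

theorem IT_virt (v : IsGeneralizedCharacter _ k) : IsGeneralizedCharacter _ (IT k) := m.RR_virt (v.comp (pT m φ))

theorem ci_IT : ⟪IT k, IT k'⟫ = ⟪k, k'⟫ + ⟪k, fun x => k' (sT m φ x)⟫ := by
  rw [IT, IT, m.ci_RR_RR, ← ci_comp_surjective (pT m φ) pT_surj, ← ci_comp_surjective (pT m φ) pT_surj]
  simp only [sT_pT]; rfl

theorem ci_IT_one : ⟪IT k, fun _ => 1⟫ = ⟪k, fun _ => 1⟫ := m.ci_RR_one.trans (ci_comp_surjective (pT m φ) pT_surj k fun _ => 1)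

theorem ci_aut (w : MulAut (Tor m φ)) : ⟪fun x => k (w x), fun x => k' (w x)⟫ = ⟪k, k'⟫ := ci_comp_equiv w.toEquiv k k'

include h

theorem ci_r : ⟪fun x => k (rT h x), k'⟫ = ⟪k, fun x => k' (rT h (rT h x))⟫ := by
  rw [← ci_aut (k := k) (rT h)]; simp only [rrr]

theorem ev_r (e : Ev a) (n : ∀ x, a (rT h x) = a x) : a = 1 := e.eq_one (m := 3) (by decide) fun x => by
  rw [← e (x * rT h x * rT h (rT h x)) (r_fix h (by simp only [map_mul, rrr]; rw [mul_assoc x]; exact mul_comm' _ _)),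
    map_mul, map_mul, n, n, n, pow_three']

theorem Dt.rs (d : Dt η a) (n : a ≠ 1) : ∃ x, a.comp (rT h).toMonoidHom (sT m φ x) ≠ a.comp (rT h).toMonoidHom x := by
  by_contra! q
  refine n (ev_r h (d.ev h) fun x => ?_)
  simpa [B85C.rs, d.s, rrr] using q (rT h (rT h x))

theorem Dt.ne (d : Dt η a) (d' : Dt η' a') (n : a' ≠ 1) : a ≠ a'.comp (rT h).toMonoidHom := by
  rintro rfl
  obtain ⟨x, q⟩ := d'.rs h n
  exact q (d.s x)

/-- the first family -/
noncomputable def f1 (η η' : C →* ℂˣ) (a a' : Tor m φ →* ℂˣ) : H → ℂ :=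
  (fun y => (ch η - ch η') (m.det y)) + IT fun x => (ch a - ch a') (rT h x)

theorem f1_PK (d : Dt η a) (d' : Dt η' a') : PK h (f1 h η η' a a') (ch a - ch a') := by
  have o : ∀ x, Odd (orderOf x) → (ch a - ch a') x = 0 := fun x o => by simp [ch, d.ev h x o, d'.ev h x o]
  refine ⟨fun x y e => ?_, (((ch_virt η).sub (ch_virt η')).comp _).add
    (IT_virt (((ch_virt a).sub (ch_virt a')).comp (rT h).toMonoidHom)), (ch_virt a).sub (ch_virt a'),
    fun y e => ?_, o, fun x y n => ?_⟩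
  · have := h.odd_det (A := y⁻¹ * x) (by simp [e])
    have e1 := d.1 _ this
    have e2 := d'.1 _ this
    simp only [map_mul, map_inv, inv_mul_eq_one] at e1 e2
    simp only [f1, Pi.add_apply, Pi.sub_apply, ch, e1, e2, IT_inv h _ x y e]
  · rw [f1, Pi.add_apply, IT_odd (fun x e => o (rT h x) (by rwa [MulEquiv.orderOf_eq])) y e]
    simp [ch, d.1 _ (h.odd_det e), d'.1 _ (h.odd_det e)]
  · simp [f1, IT_dg n, SS, ch, m.det_dg, d.2, d'.2, rs, d.s, d'.s, add_assoc]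

theorem f1_ci {ζ ζ' : C →* ℂˣ} {b b' : Tor m φ →* ℂˣ} (d : Dt η a) (d' : Dt η' a') (e : Dt ζ b) (e' : Dt ζ' b') :
    ⟪Th m φ (f1 h η η' a a'), Th m φ (f1 h ζ ζ' b b')⟫ =
      ⟪ch a - ch a', ch b - ch b'⟫ + ⟪ch a - ch a', fun x => (ch b - ch b') (rT h x)⟫ := by
  have k1 : ∀ {η η' : C →* ℂˣ} {a a' : Tor m φ →* ℂˣ}, Dt η a → Dt η' a' → ∀ k : Tor m φ → ℂ,
      ⟪IT k, fun y => (ch η - ch η') (m.det y)⟫ = ⟪k, ch a - ch a'⟫ := fun d d' k => by
    rw [IT, m.ci_RR_det, ← ci_comp_surjective (pT m φ) pT_surj]; simp [ch, d.2, d'.2]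
  have k2 : ⟪fun y : H => (ch η - ch η') (m.det y),
      fun y => (ch ζ - ch ζ') (m.det y)⟫ = ⟪ch a - ch a', ch b - ch b'⟫ := by
    rw [ci_comp_surjective _ fun c => ⟨m.dg (c, 1), by rw [m.det_dg, mul_one]⟩, ← ci_comp_surjective (pT m φ) pT_surj,
      ← ci_comp_surjective mulMonoidHom fun c => ⟨(c, 1), mul_one c⟩]
    simp [ch, d.2, d'.2, e.2, e'.2]
  have v : IsGeneralizedCharacter _ fun x => (ch b - ch b') (rT h x) :=
    ((ch_virt b).sub (ch_virt b')).comp (rT h).toMonoidHom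
  have s : ∀ x, (ch b - ch b') (sT m φ x) = (ch b - ch b') x := fun x => by simp [ch, e.s, e'.s]
  rw [(f1_PK h d d').ci (f1_PK h e e'), f1, f1, ci_add_left, ci_add_right, ci_add_right, k2, k1 e e', ci_IT,
    IsGeneralizedCharacter.ci_comm (((ch_virt η).sub (ch_virt η')).comp _) (IT_virt v), k1 d d',
    v.ci_comm ((ch_virt a).sub (ch_virt a')), ci_aut, ci_r, ci_r,
    show SS h (ch b - ch b') = (ch b - ch b') + (fun x => (ch b - ch b') (rT h x)) + fun x => _ from rfl,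
    ci_add_right, ci_add_right]
  simp only [rs, s, rrr]
  ring

theorem f1_one (d : Dt η a) (d' : Dt η' a') :
    ⟪Th m φ (f1 h η η' a a'), fun _ => 1⟫ = ⟪ch a - ch a', fun _ => 1⟫ := by
  rw [(f1_PK h d d').ci_one, f1, ci_add_left, ci_IT_one, ci_r, add_sub_cancel_right,
    ci_comp_surjective _ (fun c => ⟨m.dg (c, 1), by rw [m.det_dg, mul_one]⟩) _ fun _ => 1,
    ← ci_comp_surjective (pT m φ) pT_surj, ← ci_comp_surjective mulMonoidHom fun c => ⟨(c, 1), mul_one c⟩]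
  simp [ch, d.2, d'.2]

theorem f1_val (d : Dt η a) (d' : Dt η' a') :
    Th m φ (f1 h η η' a a') (φ (m.dg (m.e, m.e))) = (1 - m.q) * (ch η m.e - ch η' m.e) := by
  rw [(f1_PK h d d').val]
  simp [f1, IT, m.RR_sc, m.det_dg, ch, r_t1, d.2, d'.2, m.ee]

theorem f1_cZ (d : Dt η a) (d' : Dt η' a') : cZ (φ (m.dg (m.e, m.e))) (Th m φ (f1 h η η' a a')) =
    C1[φ (m.dg (m.e, m.e))].index * (cZ (m.dg (1, m.e)) (IT (ch (a.comp (rT h).toMonoidHom))) -
      cZ (m.dg (1, m.e)) (IT (ch (a'.comp (rT h).toMonoidHom)))) := by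
  rw [(f1_PK h d d').cZ_eq, f1, cZ_add, ← cZ_sub, ← IT_sub, show (fun y : H => (ch η - ch η')
    (m.det y)) = (fun y => ch η (m.det y)) -
    fun y => ch η' (m.det y) from rfl, cZ_sub, m.cZ_det, m.cZ_det, sub_self, zero_add]
  rfl

theorem Dt.cZ (d : Dt η a) (n : a ≠ 1) : cZ (m.dg (1, m.e)) (IT (ch (a.comp (rT h).toMonoidHom))) =
    2 * m.q ^ 2 * (1 - m.q) * (1 + ch η m.e) := by
  rw [cZ_IT (d.rs h n)]; simp [ch, r_t1, d.2]

end Cfsg.Agent.B85C
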