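import Cfsg.Agent.B85C.D
import Cfsg.Agent.B84V.R

/-! # The index of the centralizer: `q ≡ 3 (mod 4)`, and regular characters of odd order -/

set_option autoImplicit false
set_option linter.unusedSectionVars false

namespace Cfsg.Agent.B85C

open Cfsg Cfsg.Agent.GT Cfsg.Agent.Char Subgroup Function
open Cfsg.Agent.B84C (cI cZ cN ch ch_virt ch_irr ci_ch Ev cZ_add cZ_sub two_term link cZ_one Ev.eq_one)
open scoped ComplexConjugate Classical

theorem two_ar {G : Type*} [Group G] [Fintype G] {t : G} {Θ : G → ℂ} (tt : t * t = 1) {q e : ℤ} (q0 : 0 < q)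
    (he : e ≠ 0) (v : IsGeneralizedCharacter G Θ) (h2 : ⟪Θ, Θ⟫ = 2) (h1 : Θ 1 = 0) (ht : Θ t = 2 * e)
    (hz : cZ t Θ = C1[t].index * (4 * q ^ 2 * e)) :
    ∃ (α β : G → ℂ) (N c : ℤ), IsIrrCharacter G α ∧ IsIrrCharacter G β ∧ Θ = α - β ∧ α 1 = N ∧ β 1 = N ∧
      α t = c + e ∧ β t = c - e ∧ 0 < N ∧ 0 < c ∧ C1[t].index * c = q ^ 2 * N ∧
      2 * c ^ 2 + 2 * e ^ 2 ≤ Nat.card C1[t] := by
  obtain ⟨α, β, N, a, b, ha, hb, -, rfl, a1, b1, a2, b2, N0, k, le⟩ := two_term tt v h2 h1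
  obtain rfl : a = b + 2 * e := by
    rw [Pi.sub_apply, a2, b2] at ht
    exact_mod_cast sub_eq_iff_eq_add'.1 ht
  have n0 : 0 < C1[t].index := Nat.pos_of_ne_zero index_ne_zero_of_finite
  have m : C1[t].index * (b + e) = q ^ 2 * N := by
    have : (4 * e * C1[t].index : ℂ) ≠ 0 := by simp [he, n0.ne']
    rw [← Int.cast_inj (α := ℂ)]
    refine mul_left_cancel₀ this ?_
    rw [hz] at k
    push_cast at k ⊢
    linear_combination -k
  refine ⟨α, β, N, b + e, ha, hb, rfl, a1, b1, by rw [a2]; push_cast; ring, by rw [b2]; push_cast; ring, N0,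
    pos_of_mul_pos_left (b := (C1[t].index : ℤ)) ?_ (by positivity), m, by linarith⟩
  rw [mul_comm, m]; positivity

variable {H C K X G : Type*} [Group H] [CommGroup C] [CommGroup K] [CommGroup X] [Group G] [Fintype H] [Fintype C]
  [Fintype K] [Fintype X] [Fintype G] {m : Mo H C K X} {φ : H →* G} {g : G} (h : Hy m φ g)

theorem Mo.ex_i (m : Mo H C K X) (q4 : m.q % 4 = 3) : ∃ i : C, i * i = m.e := by
  have := m.cycK
  have : IsCyclic C := isCyclic_of_injective m.jj m.jj_inj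
  obtain ⟨γ, o⟩ := IsCyclic.exists_ofOrder_eq_natCard (α := C)
  obtain ⟨k, e⟩ : ∃ k, m.q + 1 = 4 * (k + 1) := ⟨m.q / 4, by omega⟩
  rw [m.cC, e] at o
  refine ⟨γ ^ (k + 1), (m.sqC ?_).resolve_left fun n => ?_⟩
  · rw [← pow_add, ← pow_add, ← pow_orderOf_eq_one γ, o]; congr 1; ring
  · have := Nat.le_of_dvd (by omega) (orderOf_dvd_of_pow_eq_one ((pow_add _ _ _).trans n))
    omega

include h

theorem card_le : (Nat.card C1[φ (m.dg (m.e, m.e))] : ℤ) ≤ (m.q + 1) * ((m.q + 1) * (m.q - 1) * m.q) := by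
  have := Nat.cast_le (α := ℤ).2 ((Nat.le_mul_of_pos_right _ Nat.card_pos).trans h.card_H.le)
  rw [m.card_H, m.cK] at this
  simpa [Nat.cast_sub (show 1 ≤ m.q by have := m.q3; omega)] using this

theorem dvd_ar {N c e : ℤ} (c0 : 0 < c) (k : C1[φ (m.dg (m.e, m.e))].index * c = m.q ^ 2 * N)
    (le : 2 * c ^ 2 + 2 * e ^ 2 ≤ Nat.card C1[φ (m.dg (m.e, m.e))]) :
    ¬m.q.Coprime C1[φ (m.dg (m.e, m.e))].index := fun n => by
  have := Int.le_of_dvd c0 ((Nat.isCoprime_iff_coprime.2 n).pow_left.dvd_of_dvd_mul_left ⟨N, k⟩)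
  have := card_le h
  have : (3 : ℤ) ≤ m.q := by exact_mod_cast m.q3
  have : ((m.q : ℤ) ^ 2) ^ 2 ≤ c ^ 2 := pow_le_pow_left₀ (by positivity) ‹_› 2
  nlinarith [sq_nonneg e]

theorem three_mod_four (q4 : m.q % 4 = 3) : ∃ c N : ℤ, 0 < c ∧ 0 < N ∧
    C1[φ (m.dg (m.e, m.e))].index * c = m.q ^ 2 * N ∧
    2 * c ^ 2 + 2 * (1 - m.q) ^ 2 ≤ Nat.card C1[φ (m.dg (m.e, m.e))] ∧
    (m.q * (N - c - (m.q - 1)) ^ 2 = (m.q - 1) * (m.q + 1) ^ 2 * c * (N + 1) ∨
    m.q * (N - c + (m.q - 1)) ^ 2 = (m.q - 1) * (m.q + 1) ^ 2 * c * (N - 1)) := by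
  obtain ⟨η, ev, e⟩ := exists_ev m.ee m.e1
  obtain ⟨a, d⟩ := exists_Dt h ev
  have q3 := m.q3
  have d2 : Dt (η * η) (a * a) := ⟨fun x o => by simp [ev x o], fun x => by simp [d.2]⟩
  have d1 : Dt 1 (1 : Tor m φ →* ℂˣ) := ⟨fun _ _ => rfl, fun _ => rfl⟩
  have n1 : (-1 : ℂˣ) ≠ 1 := by simp [Units.ext_iff, neg_eq_iff_add_eq_zero]
  have n2 : a * a ≠ 1 := fun k => by
    obtain ⟨i, hi⟩ := m.ex_i q4
    have := d2.2 (i, 1)
    rw [k, MonoidHom.mul_apply, ← map_mul, mul_one, hi, e] at this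
    exact n1 this.symm
  have n3 : a ≠ 1 := fun k => n2 (by rw [k]; exact mul_one (1 : Tor m φ →* ℂˣ))
  have n4 : a * a ≠ a := fun k => n3 (MonoidHom.ext fun x => mul_eq_left.1 (DFunLike.congr_fun k x))
  have r : ∀ b b' : Tor m φ →* ℂˣ, (fun x => (ch b - ch b') (rT h x)) =
    ch (b.comp (rT h).toMonoidHom) - ch (b'.comp (rT h).toMonoidHom) := fun _ _ => rfl
  have c1 : ch (1 : Tor m φ →* ℂˣ) = fun _ => 1 := rfl
  have o2 : ⟪Th m φ (f1 h (η * η) η (a * a) a), fun _ => 1⟫ = 0 := by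
    rw [f1_one h d2 d, ← c1]; simp [ci_sub_left, ci_ch, n2, n3]
  obtain ⟨α, β, N, c, ha, hb, k, a1, b1, a2, b2, N0, c0, p, le⟩ := two_ar (tt (m := m) (φ := φ)) (q := m.q)
    (e := 1 - m.q) (by omega) (by omega) (f1_PK h d2 d).virt (by
      rw [f1_ci h d2 d d2 d, r]
      simp [-MulEquiv.toMonoidHom_eq_coe, ci_sub_left, ci_sub_right, ci_ch, n4, n4.symm, d2.ne h d2 n2, d2.ne h d n3,
        d.ne h d2 n2, d.ne h d n3]
      norm_num) (PK.one h) (by rw [f1_val h d2 d]; simp [ch, e]; ring)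
    (by rw [f1_cZ h d2 d, d2.cZ h n2, d.cZ h n3]; simp [-mul_eq_mul_left_iff, ch, e]; ring)
  obtain ⟨x, y, x0, x1, k', q⟩ := link (tt (m := m) (φ := φ)) (f1_PK h d1 d2).virt (by
      rw [f1_ci h d1 d2 d1 d2, r]
      simp [-MulEquiv.toMonoidHom_eq_coe, ci_sub_left, ci_sub_right, ci_ch, n2, n2.symm, d2.ne h d2 n2, d1.ne h d2 n2]
      norm_num) (by rw [f1_one h d1 d2, ← c1]; simp [ci_sub_left, ci_ch, n2]) (PK.one h)
    (by rw [f1_val h d1 d2]; simp [ch, e]) hb ha (by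
      rw [← neg_sub, ← k, ci_neg_right, f1_ci h d1 d2 d2 d, r]
      simp [-MulEquiv.toMonoidHom_eq_coe, ci_sub_left, ci_sub_right, ci_ch, n2.symm, n3.symm, n4, d2.ne h d2 n2,
        d1.ne h d2 n2, d2.ne h d n3, d1.ne h d n3]) (by rw [← neg_sub, ← k, ci_neg_left, o2, neg_zero])
  rw [f1_cZ h d1 d2, d2.cZ h n2, show IT (ch ((1 : Tor m φ →* ℂˣ).comp (rT h).toMonoidHom)) = (fun _ => 1) - m.St from
    m.RR_const, cZ_sub, m.cZ_St, cZ_one, m.index_u] at k'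
  have n0 : (C1[φ (m.dg (m.e, m.e))].index : ℂ) ≠ 0 := Nat.cast_ne_zero.2 index_ne_zero_of_finite
  have N1 : (N : ℂ) ≠ 0 := Int.cast_ne_zero.2 N0.ne'
  have m' := Int.cast_inj (α := ℂ).2 p
  simp only [ch, MonoidHom.mul_apply, e, neg_mul_neg, mul_one, Units.val_one] at k'
  refine ⟨c, N, c0, N0, p, le, q.imp (fun q => ?_) fun q => ?_⟩ <;> rw [← Int.cast_inj (α := ℂ)] <;>
    refine mul_left_cancel₀ (mul_ne_zero (mul_ne_zero n0 N1) m.q_ne) ?_ <;> push_cast at *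
  · rw [← q.1, ← q.2, b1, b2] at k'
    linear_combination -c * k' - C1[φ (m.dg (m.e, m.e))].index * (N - c - (m.q - 1)) ^ 2 * m'
  · rw [← neg_neg (x : ℂ), ← neg_neg (y : ℂ), ← q.1, ← q.2, a1, a2] at k'
    linear_combination -c * k' - C1[φ (m.dg (m.e, m.e))].index * (N - c + (m.q - 1)) ^ 2 * m'

theorem Ca_three (q4 : m.q % 4 = 3) : ¬m.q.Coprime C1[φ (m.dg (m.e, m.e))].index := by
  obtain ⟨c, N, c0, -, k, le, -⟩ := three_mod_four h q4
  exact dvd_ar h (e := 1 - m.q) c0 k le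

theorem regular_T {l : Tor m φ →* ℂˣ} {s : ℕ} (hm : Odd s) (hl : ∀ x, l x ^ s = 1) (h1 : ∃ x, l (rT h x) ≠ l x)
    (h2 : ∃ x, l (sT m φ x) ≠ l x) (h3 : ∃ x, l (sT m φ (rT h x)) ≠ l x)
    (h4 : ∃ x, l (sT m φ (rT h (rT h x))) ≠ l x) : ¬m.q.Coprime C1[φ (m.dg (m.e, m.e))].index := by
  obtain ⟨η, ev, e⟩ := exists_ev m.ee m.e1
  obtain ⟨a, d⟩ := exists_Dt h ev
  have q3 := m.q3
  have n1 : (-1 : ℂˣ) ≠ 1 := by simp [Units.ext_iff, neg_eq_iff_add_eq_zero]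
  have t1 : a (pT m φ (m.e, m.e)) = 1 := by rw [d.2]; simp [m.ee]
  have t2 : a (pT m φ (1, m.e)) = -1 := by rw [d.2]; simpa using e
  have t3 : a (pT m φ (m.e, 1)) = -1 := by rw [d.2]; simpa using e
  have lt : ∀ x, x * x = 1 → l x = 1 := fun x k =>
    TT.eq_one_of_pow_coprime (Nat.coprime_two_left.2 hm) (by rw [← map_pow, sq, k, map_one]) (hl x)
  have l1 := lt (pT m φ (m.e, m.e)) (Subtype.ext tt)
  have l2 := lt (pT m φ (1, m.e)) (Subtype.ext uu)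
  have l3 := lt (pT m φ (m.e, 1)) (Subtype.ext (t_sq m.ee (mul_one 1)))
  have key : ∀ (w : MulAut (Tor m φ)) (b b' : Tor m φ →* ℂˣ), Ev b → Ev b' → (∃ x, l (w x) ≠ l x) →
      ∃ x, (l * b') (w x) ≠ (l * b) x := fun w b b' e e' ⟨x, n⟩ => by
    by_contra! q
    have : l.comp w.toMonoidHom * l⁻¹ = 1 := Ev.eq_one (fun x o => by
      simpa [mul_inv_eq_one, e x o, e' (w x) (by rwa [MulEquiv.orderOf_eq])] using q x) hm fun x => by
        simp [mul_pow, hl]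
    exact n (by simpa [mul_inv_eq_one] using DFunLike.congr_fun this x)
  set μ := ch l - ch (l * a) with hμ
  have z : ∀ w : MulAut (Tor m φ), (∃ x, l (w x) ≠ l x) → ⟪μ, fun x => μ (w x)⟫ = 0 := fun w n => by
    have k : ∀ b b' : Tor m φ →* ℂˣ, Ev b → Ev b' → l * b ≠ (l * b').comp w.toMonoidHom := fun b b' e e' q => by
      obtain ⟨x, n⟩ := key w b b' e e' n
      exact n (DFunLike.congr_fun q x).symm
    have o : Ev (1 : Tor m φ →* ℂˣ) := fun _ _ => rfl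
    have m1 : l * 1 = l := mul_one l
    have k1 := k _ _ o o
    have k2 := k _ _ o (d.ev h)
    have k3 := k _ _ (d.ev h) o
    rw [m1] at k1 k2 k3
    rw [show (fun x => μ (w x)) = ch (l.comp w.toMonoidHom) - ch ((l * a).comp w.toMonoidHom) from rfl]
    simp only [hμ, ci_sub_left, ci_sub_right, ci_ch, k1, k2, k3, k _ _ (d.ev h) (d.ev h), if_false, sub_zero]
  have z1 := z _ h1
  have z2 := z _ h2
  have z3 := z (sT m φ * rT h) h3
  have z4 := z (sT m φ * rT h * rT h) h4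
  have z5 := z (rT h * rT h) (h1.elim fun x n => ⟨rT h x, by simpa [rrr] using n.symm⟩)
  have z0 : ⟪μ, μ⟫ = 2 := by
    have : l ≠ l * a := fun q => n1 (t2.symm.trans (left_eq_mul.1 (DFunLike.congr_fun q _)))
    simp only [hμ, ci_sub_left, ci_sub_right, ci_ch, this, this.symm, if_false, if_true]; norm_num
  have v : ∀ w : MulAut (Tor m φ), IsGeneralizedCharacter _ fun x => μ (w x) := fun w =>
    ((ch_virt l).sub (ch_virt _)).comp w.toMonoidHom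
  have o : ∀ (w : MulAut (Tor m φ)) x, Odd (orderOf x) → μ (w x) = 0 := fun w x o => by
    simp [hμ, ch, d.ev h (w x) (by rwa [MulEquiv.orderOf_eq])]
  have S : ∀ k, SS h k = k + (fun x => k (rT h x)) + fun x => k (rT h (rT h x)) := fun _ => rfl
  have p : PK h (IT (SS h μ)) (μ + fun x => μ (sT m φ x)) := ⟨IT_inv h _,
    IT_virt (((v 1).add (v (rT h))).add (v (rT h * rT h))), (v 1).add (v _),
    IT_odd fun x e => by rw [SS, show μ x = 0 from o 1 x e, o _ x e, show μ (rT h (rT h x)) = 0 from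
      o (rT h * rT h) x e]; simp, fun x e => by rw [Pi.add_apply, show μ x = 0 from o 1 x e, o _ x e, add_zero],
    fun a b n => by simp only [IT_dg n, SS, Pi.add_apply, rs, rrr]; ring⟩
  have A : ∀ k k' k'' : Tor m φ → ℂ, ⟪k, fun x => k' x + k'' x⟫ = ⟪k, k'⟫ + ⟪k, k''⟫ := fun _ _ _ => ci_add_right _ _ _
  have A1 : ∀ k, ⟪fun x => μ (rT h x), k⟫ = ⟪μ, fun x => k (rT h (rT h x))⟫ := fun _ => ci_r h
  have A2 : ∀ k, ⟪fun x => μ (rT h (rT h x)), k⟫ = ⟪μ, fun x => k (rT h x)⟫ := fun _ => by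
    rw [ci_r h (k := fun x => μ (rT h x)), ci_r h]; simp only [rrr]
  have A3 : ∀ k, ⟪fun x => μ (sT m φ x), k⟫ = ⟪μ, fun x => k (sT m φ x)⟫ := fun _ => by
    rw [← ci_aut (k := μ) (sT m φ)]; simp only [ss]
  have c : ∀ w : MulAut (Tor m φ), (∃ x, l (w (sT m φ (w⁻¹ x))) ≠ l x) → cZ (m.dg (1, m.e)) (IT fun x => μ (w x)) =
      2 * m.q ^ 2 * (1 - m.q) * μ (w (pT m φ (m.e, m.e))) := fun w n => by
    obtain ⟨x, n'⟩ := key (w * sT m φ * w⁻¹) a a (d.ev h) (d.ev h) n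
    obtain ⟨y, n⟩ := n
    rw [show (fun x => μ (w x)) = ch (l.comp w.toMonoidHom) - ch ((l * a).comp w.toMonoidHom) from rfl, IT_sub, cZ_sub,
      cZ_IT ⟨w⁻¹ y, by simpa using n⟩, cZ_IT ⟨w⁻¹ x, by simpa using n'⟩]
    simp only [hμ, ch, Pi.sub_apply, MonoidHom.comp_apply, MulEquiv.coe_toMonoidHom]; ring
  have i1 : ∀ x, (rT h)⁻¹ x = rT h (rT h x) := fun x => (MulEquiv.symm_apply_eq _).2 (rrr h x).symm
  simp only [MulAut.mul_apply] at z3 z4 z5
  obtain ⟨-, -, N, c, -, -, -, -, -, -, -, -, c0, k, le⟩ := two_ar (tt (m := m) (φ := φ)) (q := m.q)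
    (e := 2 * (1 - m.q)) (by omega) (by omega) p.virt
    (by rw [p.ci p, ci_IT, S, S]
        simp only [ci_add_left, ci_add_right, Pi.add_apply, A, A1, A2, A3, rs, rrr, ss, z0, z1, z2, z3, z4, z5]
        norm_num) (PK.one h)
    (by rw [p.val, IT, m.RR_sc]; simp [SS, r_t1, r_t2, hμ, ch, t1, t2, t3, l1, l2, l3]; ring)
    (by rw [p.cZ_eq, S, IT_add, IT_add, cZ_add, cZ_add, show cZ _ (IT μ) = _ from c 1 h2,
          c _ (by simpa only [i1, rs, rrr] using h3), show cZ _ (IT fun x => μ (rT h (rT h x))) = _ from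
          c (rT h * rT h) (by simpa only [mul_inv_rev, MulAut.mul_apply, i1, rs, rrr] using h4)]
        simp [-mul_eq_mul_left_iff, r_t1, r_t2, hμ, ch, t1, t2, t3, l1, l2, l3]; ring)
  exact dvd_ar h (e := 2 * (1 - m.q)) c0 k le

/-- (C-a) when `g` moves an element of odd order of the torus -/
theorem Ca_reg (hD : D1 m φ g) {a b : C} (o : Odd (orderOf (φ (m.dg (a, b))))) (n : ¬Commute g (φ (m.dg (a, b)))) :
    ¬m.q.Coprime C1[φ (m.dg (m.e, m.e))].index := by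
  obtain ⟨l, s, os, hl, k1, k2, k3, k4⟩ := B84V.regular (rT h) (sT m φ) (MulEquiv.ext (rrr h)) (MulEquiv.ext (rs h))
    (fun y e => by
      have e3 := congrArg Subtype.val (show rT h (y * sT m φ y) = y * sT m φ y by rw [map_mul, rs, e, e])
      obtain ⟨⟨c, d⟩, rfl⟩ := pT_surj y
      rw [sT_pT, ← map_mul, Prod.swap_prod_mk, Prod.mk_mul_mk, mul_comm d] at e3 ⊢
      exact Subtype.ext (hD _ (mul_inv_eq_iff_eq_mul.1 ((rT_val h _).symm.trans e3)))) (x := pT m φ (a, b))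
    (by rwa [← orderOf_coe]) fun e => n (mul_inv_eq_iff_eq_mul.1 ((rT_val h _).symm.trans (congrArg Subtype.val e)))
  exact regular_T h os (DFunLike.congr_fun hl) k1 k2 k3 k4

end Cfsg.Agent.B85C
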