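import Cfsg.Agent.B85C.E
import Cfsg.Agent.B85D.H
import Cfsg.Agent.B85I.M8
import Cfsg.Agent.B85.Main

/-! # The number of involutions -/

set_option autoImplicit false

namespace Cfsg.Agent.B85C

open Cfsg Cfsg.Agent.GT Cfsg.Agent.Char Subgroup

universe u v

/-- the characters coming from the principal series -/
def PSI : Prop := ∀ (H C K X : Type v) (G : Type u) [Group H] [CommGroup C] [CommGroup K] [CommGroup X] [Group G]
  [Fintype H] [Fintype C] [Fintype K] [Fintype X] [Fintype G] (m : Mo H C K X) (φ : H →* G) (g : G),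
  Hy m φ g → m.q % 4 = 1 → ∃ (η η' : G → ℂ) (x : ℤ), IsSIrr G η ∧ IsSIrr G η' ∧ η 1 = x ∧
    η (φ (m.dg (m.e, m.e))) = m.q ∧ η' 1 = -(x + 1) ∧ η' (φ (m.dg (m.e, m.e))) = -(m.q + 1) ∧
    (C1[φ (m.dg (m.e, m.e))].index : ℤ) * (x - m.q) ^ 2 = m.q * (m.q + 1) * (m.q - 1) ^ 2 * (x * (x + 1)) ∧
    (3 * m.q + 2 ≤ x ∨ x ≤ -3 * m.q - 4) ∧
    ∀ y, 1 + (η y + η' y) ≠ 0 → ∃ z, IsConj (φ (m.dg (z, z))) (y ^ (m.q - 1))

theorem cCa (ps : PSI.{u, v}) : B85.CA.{u, v} := fun H C K X G _ _ _ _ _ _ _ _ _ _ m φ g h hD p k hp hq => by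
  have c : ¬m.q.Coprime C1[φ (m.dg (m.e, m.e))].index → p ∣ C1[φ (m.dg (m.e, m.e))].index := fun n => by
    by_contra d
    exact n (hq ▸ (hp.coprime_iff_not_dvd.2 d).pow_left k)
  obtain q4 | q4 : m.q % 4 = 1 ∨ m.q % 4 = 3 := by have := Nat.odd_iff.1 m.odd; omega
  · by_cases hc : ∀ a b, Odd (orderOf (φ (m.dg (a, b)))) → Commute g (φ (m.dg (a, b)))
    · obtain ⟨η, η', x, s1, s2, v1, v2, v3, v4, E, -, z⟩ := ps H C K X G m φ g h q4
      exact B85D.hard' h q4 hD hc (fun _ => B85I.H1 h q4) s1 s2 v1 v2 v3 v4 E z hp k hq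
    · push Not at hc
      obtain ⟨a, b, o, n⟩ := hc
      exact c (Ca_reg h hD o n)
  · exact c (Ca_three h q4)

theorem cCb (ps : PSI.{u, v}) : B85.CB.{u, v} := fun H C K X G _ _ _ _ _ _ _ _ _ _ m φ g h p k hp hq d => by
  have q3 : (3 : ℤ) ≤ m.q := by exact_mod_cast m.q3
  have e : (m.q : ℤ) = p ^ k := by exact_mod_cast hq
  have d' : (m.q : ℤ) ^ 2 ∣ C1[φ (m.dg (m.e, m.e))].index := by exact_mod_cast d
  zify [Nat.le_self_pow two_ne_zero m.q]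
  refine Or.resolve_right ?_ (B85I.kill h)
  obtain q4 | q4 : m.q % 4 = 1 ∨ m.q % 4 = 3 := by have := Nat.odd_iff.1 m.odd; omega
  · obtain ⟨-, -, x, -, -, -, -, -, -, E, b, -⟩ := ps H C K X G m φ g h q4
    obtain ⟨c, e1, e2⟩ := B85D.exists_c (by omega) E
    exact B85I.ar1 hp e q3 d' e1 e2 b
  · obtain ⟨c, N, c0, -, e1, -, E⟩ := three_mod_four h q4
    exact B85I.ar3' hp e q3 c0 h.odd_index.natCast (by exact_mod_cast h.odd_index.pos) d' e1 E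

end Cfsg.Agent.B85C
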