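import Cfsg.Agent.B85C.C

/-! # The torus and the virtual characters `ψ^G - κ^G` -/

set_option autoImplicit false
set_option linter.unusedSectionVars false

namespace Cfsg.Agent.B85C

open Cfsg Cfsg.Agent.GT Cfsg.Agent.Char Subgroup Function
open Cfsg.Agent.B84C (cI cZ cN cZ_ind sum_fib ind_TI zp_conj not_odd inv_uniq exists_inv)
open scoped ComplexConjugate Classical

section tor
variable {H C K X G : Type*} [Group H] [CommGroup C] [CommGroup K] [CommGroup X] [Group G]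
  {m : Mo H C K X} {φ : H →* G} {g : G}

/-- the torus -/
noncomputable abbrev Tor (m : Mo H C K X) (φ : H →* G) : Subgroup G := (φ.comp m.dg).range

/-- the projection onto the torus -/
noncomputable def pT (m : Mo H C K X) (φ : H →* G) : C × C →* Tor m φ := (φ.comp m.dg).rangeRestrict

theorem pT_surj : Surjective (pT m φ) := MonoidHom.rangeRestrict_surjective _

theorem pT_val (d : C × C) : (pT m φ d : G) = φ (m.dg (d.1, d.2)) := rfl

instance torComm : IsMulCommutative (Tor m φ) := ⟨⟨fun x y => by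
  obtain ⟨a, rfl⟩ := pT_surj x
  obtain ⟨b, rfl⟩ := pT_surj y
  rw [← map_mul, ← map_mul, mul_comm]⟩⟩

theorem w_norm : φ m.ww ∈ N[Tor m φ] := mem_normalizer_iff.2 fun x => ⟨by
  rintro ⟨d, rfl⟩; exact ⟨d.swap, (Hy.w_dg _ _).symm⟩, by
  rintro ⟨d, e⟩; exact ⟨d.swap, (TT.conj_inj_iff (φ m.ww)).1 ((Hy.w_dg _ _).trans e)⟩⟩

/-- the reflection -/
noncomputable def sT (m : Mo H C K X) (φ : H →* G) : MulAut (Tor m φ) := (Tor m φ).normalizerMonoidHom ⟨_, w_norm⟩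

theorem sT_val (x : Tor m φ) : (sT m φ x : G) = φ m.ww * x * (φ m.ww)⁻¹ := rfl

theorem sT_pT (d : C × C) : sT m φ (pT m φ d) = pT m φ d.swap := Subtype.ext (Hy.w_dg _ _)

theorem ss (x : Tor m φ) : sT m φ (sT m φ x) = x := by
  obtain ⟨a, rfl⟩ := pT_surj x
  rw [sT_pT, sT_pT, Prod.swap_swap]

variable (h : Hy m φ g)

include h in
theorem g_norm : g ∈ N[Tor m φ] := mem_normalizer_iff.2 fun x => ⟨by
  rintro ⟨d, rfl⟩; obtain ⟨a, b, e⟩ := h.g_T d.1 d.2; exact ⟨(a, b), e.symm⟩, by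
  rintro ⟨d, e⟩; obtain ⟨a, b, e'⟩ := h.g_T' d.1 d.2
  exact ⟨(a, b), e'.symm.trans (by rw [show φ (m.dg (d.1, d.2)) = _ from e]; group)⟩⟩

/-- the rotation -/
noncomputable def rT : MulAut (Tor m φ) := (Tor m φ).normalizerMonoidHom ⟨_, g_norm h⟩

theorem rT_val (x : Tor m φ) : (rT h x : G) = g * x * g⁻¹ := rfl

theorem rrr (x : Tor m φ) : rT h (rT h (rT h x)) = x := by
  obtain ⟨a, b, e⟩ := h.g_cube
  obtain ⟨d, rfl⟩ := pT_surj x
  refine Subtype.ext ((show _ = g ^ 3 * (pT m φ d : G) * (g ^ 3)⁻¹ by simp only [rT_val, pow_three]; group).trans ?_)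
  rw [e, pT_val, T_comm.eq, mul_inv_cancel_right]

theorem rs (x : Tor m φ) : rT h (sT m φ x) = sT m φ (rT h (rT h x)) := by
  have k : ∀ x, sT m φ (rT h (sT m φ (rT h x))) = x := fun x => by
    obtain ⟨a, b, e⟩ := h.wg_sq
    obtain ⟨d, rfl⟩ := pT_surj x
    refine Subtype.ext ((show _ = φ m.ww * g * (φ m.ww * g) * (pT m φ d : G) * (φ m.ww * g * (φ m.ww * g))⁻¹ by
      simp only [rT_val, sT_val]; group).trans ?_)
    rw [e, pT_val, T_comm.eq, mul_inv_cancel_right]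
  rw [← ss (rT h _), ← k (rT h (rT h x)), rrr, ss]

theorem r_t1 : rT h (pT m φ (m.e, m.e)) = pT m φ (1, m.e) := Subtype.ext h.g1

theorem r_t2 : rT h (pT m φ (1, m.e)) = pT m φ (m.e, 1) := Subtype.ext h.g2

theorem r_t3 : rT h (pT m φ (m.e, 1)) = pT m φ (m.e, m.e) := Subtype.ext h.g3

include h in
theorem inv_T {x : Tor m φ} (e : x * x = 1) (n : x ≠ 1) : x = pT m φ (m.e, m.e) ∨ x = pT m φ (1, m.e) ∨ x = pT m φ (m.e, 1) := by
  obtain ⟨⟨a, b⟩, rfl⟩ := pT_surj x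
  obtain ⟨e1, k, hk⟩ := h.dg_eq_one (a := a * a) (b := b * b) (congrArg Subtype.val ((map_mul _ _ _).trans e))
  have m' : pT m φ (a ^ (2 * k + 1), b ^ (2 * k + 1)) = pT m φ (a, b) := by
    rw [← Prod.pow_mk, map_pow, pow_succ, pow_mul, sq, e, one_pow, one_mul]
  have p : ∀ c : C, c * c = a * a → c ^ (2 * k + 1) = 1 ∨ c ^ (2 * k + 1) = m.e := fun c hc =>
    m.sqC (by rw [← mul_pow, hc, ← hk, pow_orderOf_eq_one])
  rw [← m'] at n ⊢
  rcases p a rfl with e2 | e2 <;> rcases p b e1.symm with e3 | e3 <;> rw [e2, e3] at n ⊢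
  exacts [(n (map_one _)).elim, .inr (.inl rfl), .inr (.inr rfl), .inl rfl]

include h in
theorem t_ne : pT m φ (m.e, m.e) ≠ pT m φ (1, m.e) := fun e => m.e1 (h.dg_eq_one (a := m.e) (b := 1) (by
  have := congrArg Subtype.val ((map_mul (pT m φ) _ _).trans (congrArg (· * _) e)
    |>.trans ((map_mul (pT m φ) (1, m.e) (1, m.e)).symm))
  simpa [pT_val, dg_one, m.ee] using this)).1

include h in
theorem r_fix [Finite G] {x : Tor m φ} (e : rT h x = x) : Odd (orderOf x) := by_contra fun n => by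
  obtain ⟨_, ⟨j, rfl⟩, ii, i1⟩ := exists_inv n
  have k : rT h (x ^ j) = x ^ j := by rw [map_zpow, e]
  have := t_ne h
  rcases inv_T h ii i1 with a | a | a <;> simp only [a] at k
  · exact this (k.symm.trans (r_t1 h))
  · exact this ((rT h).injective ((r_t1 h).trans (k.symm)))
  · exact this ((r_t3 h).symm.trans (k.trans (by rw [← r_t2 h, ← r_t1 h, ← r_t3 h, k, k, k])))

/-- the orbit sum -/
noncomputable def SS (κ : Tor m φ → ℂ) (x : Tor m φ) : ℂ := κ x + κ (rT h x) + κ (rT h (rT h x))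

theorem SS_r (κ : Tor m φ → ℂ) (x : Tor m φ) : SS h κ (rT h x) = SS h κ x := by simp only [SS, rrr]; ring

/-- the second involution is a power -/
noncomputable def iA (x : Tor m φ) : ℂ := if pT m φ (1, m.e) ∈ zpowers x then 1 else 0

theorem iA_sum [Finite G] {x : Tor m φ} (n : ¬Odd (orderOf x)) : iA x + iA (rT h x) + iA (rT h (rT h x)) = 1 := by
  obtain ⟨i, hi, ii, i1⟩ := exists_inv n
  have k : ∀ (e : MulAut (Tor m φ)), pT m φ (1, m.e) ∈ zpowers (e x) ↔ e i = pT m φ (1, m.e) := fun e => by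
    have m' : e i ∈ zpowers (e x) := by obtain ⟨j, rfl⟩ := hi; exact ⟨j, (map_zpow _ _ _).symm⟩
    refine ⟨inv_uniq (by rw [← map_mul, ii, map_one]) (by simpa using i1) ?_ ?_ m', fun q => q ▸ m'⟩
    · rw [← map_mul, ← map_one (pT m φ)]; simp only [Prod.mk_mul_mk, mul_one, m.ee]; rfl
    · rw [← r_t1 h]; exact fun q => h.t1_ne (congrArg Subtype.val ((map_eq_one_iff _ (rT h).injective).1 q))
  have k0 := k 1
  have k2 := k (rT h * rT h)
  have n1 := t_ne h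
  have n2 := (rT h).injective.ne n1
  have n3 := (rT h).injective.ne n2
  simp only [MulAut.mul_apply, MulAut.one_apply, r_t1, r_t2, r_t3] at k0 k2 n2 n3
  rcases inv_T h ii i1 with rfl | rfl | rfl <;> simp [iA, k0, k2, k (rT h), r_t1, r_t2, r_t3, n1, n2.symm]

theorem ci_SS [Fintype C] [Fintype G] {κ c : Tor m φ → ℂ} (o : ∀ x, Odd (orderOf x) → κ x = 0) (hc : ∀ x, c (rT h x) = c x) :
    ⟪fun x => SS h κ x * iA x, c⟫ = ⟪κ, c⟫ := by
  rw [ci_def, ci_def]
  simp only [SS, add_mul, Finset.sum_add_distrib]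
  rw [← Equiv.sum_comp (rT h).toEquiv fun x => κ (rT h (rT h x)) * _ * _,
    ← Equiv.sum_comp (rT h * rT h).toEquiv fun x => κ (rT h x) * _ * _, ← Finset.sum_add_distrib,
    ← Finset.sum_add_distrib]
  refine congrArg _ (Finset.sum_congr rfl fun x _ => ?_)
  simp only [MulEquiv.toEquiv_eq_coe, MulEquiv.coe_toEquiv, MulAut.mul_apply, rrr, hc]
  by_cases n : Odd (orderOf x)
  · simp [o x n]
  · linear_combination κ x * conj (c x) * iA_sum h n

end tor

variable {H C K X G : Type*} [Group H] [CommGroup C] [CommGroup K] [CommGroup X] [Group G] [Fintype H] [Fintype C]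
  [Fintype G] {m : Mo H C K X} {φ : H →* G} {g : G} {ψ ψ' : H → ℂ} {κ κ' : Tor m φ → ℂ} {h : Hy m φ g}

/-- restriction to the elements having the central involution as a power -/
noncomputable def rA (m : Mo H C K X) (φ : H →* G) (ψ : H → ℂ) (y : H) : ℂ :=
  if Ap m φ y then ψ y else 0

theorem Ap_conj {y : H} (k : H) (e : Ap m φ y) : Ap m φ (k⁻¹ * y * k) := by
  have := zp_conj (φ k) e
  rwa [← map_inv, ← map_mul, ← map_mul, ← map_mul, ← map_mul, mul_assoc k⁻¹ (m.dg _), m.cen,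
    inv_mul_cancel_left] at this

theorem rA_gd (e : Gd φ ψ) : Gd φ (rA m φ ψ) where
  cl y k := if_congr ⟨fun a => by simpa [mul_assoc] using Ap_conj k a, fun a => by simpa using Ap_conj k⁻¹ a⟩
    (e.cl y k) rfl
  inv a b q := if_congr (by rw [Ap, Ap, q]) (e.inv a b q) rfl

theorem rA_supp (y : H) (n : rA m φ ψ y ≠ 0) : Ap m φ y := by_contra fun k => n (if_neg k)

theorem iA_ne {d : C × C} : iA (pT m φ d) ≠ 0 ↔ φ (m.dg (1, m.e)) ∈ zpowers (φ (m.dg d)) := by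
  rw [iA, ite_ne_right_iff, and_iff_left one_ne_zero]
  exact ⟨fun ⟨j, e⟩ => ⟨j, congrArg Subtype.val e⟩, fun ⟨j, e⟩ => ⟨j, Subtype.ext e⟩⟩

theorem conj_dg (h : Hy m φ g) {y : H} (n : ¬Odd (orderOf (φ y))) (a : ¬Ap m φ y) :
    ∃ B d, B⁻¹ * y * B = m.dg d ∧ φ (m.dg (1, m.e)) ∈ zpowers (φ (m.dg d)) := by
  obtain ⟨_, ⟨j, rfl⟩, ii, i1⟩ := exists_inv n
  simp only [← map_zpow] at ii i1
  obtain ⟨B, e⟩ := (h.invol ii i1).resolve_left fun e => a ⟨j, (map_zpow φ y j).symm.trans e⟩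
  have hu : φ (m.dg (1, m.e)) ∈ zpowers (φ (B⁻¹ * y * B)) := by
    have := zp_conj (φ B) (e ▸ (⟨j, (map_zpow φ y j).symm⟩ : φ (y ^ j) ∈ zpowers (φ y)))
    simpa [mul_assoc] using this
  obtain ⟨a, b, e'⟩ := h.cent_t2.1 (commute_of_mem_zpowers (mem_zpowers _) hu)
  exact ⟨B, (a, b), e', (show _ ∈ zpowers (φ (m.dg (a, b))) from e' ▸ hu)⟩

theorem TI_A2 (h : Hy m φ g) {x : H} {y : G} (h1 : φ (m.dg (1, m.e)) ∈ zpowers y)
    (h2 : φ (m.dg (1, m.e)) ∈ zpowers ((φ x)⁻¹ * y * φ x)) : x ∈ m.dg.range := by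
  have := inv_uniq (by simpa using TT.conj_mul_self (φ x)⁻¹ uu)
    (by simpa [mul_assoc, inv_mul_eq_one] using h.u_ne) uu (h.u_ne) (zp_conj (φ x) h1) h2
  obtain ⟨a, b, rfl⟩ := h.cent_t2.1 (show φ x * _ = _ * φ x by nth_rw 1 [← this]; group)
  exact ⟨(a, b), rfl⟩

theorem rA_eq (h : Hy m φ g) (c : IsClassFunction _ ψ) (o : ∀ y, Odd (orderOf (φ y)) → ψ y = 0) :
    rA m φ ψ = ψ - ind m.dg fun d => ψ (m.dg d) * iA (pT m φ d) := by
  funext y
  rw [Pi.sub_apply, rA]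
  by_cases n : ψ y = 0
  · rw [ind_eq_zero_of_forall fun x a e => by rw [e, c.conj', n, zero_mul], n, ite_self, sub_zero]
  by_cases a : Ap m φ y
  · rw [if_pos a, ind_eq_zero_of_forall fun x d e => mul_eq_zero_of_right _ (by_contra fun k => t_ne h (Subtype.ext
      (inv_uniq tt h.t1_ne uu (h.u_ne) (by rw [e]; exact Ap_conj x a) (iA_ne.1 k)))), sub_zero]
  obtain ⟨B, d, e, hu⟩ := conj_dg h (fun k => n (o y k)) a
  rw [if_neg a, ← (isClassFunction_ind _ _).conj' y B, ← c.conj' y B, e,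
    ind_TI m.dg (isClassFunction_of_comm _) (fun _ _ q => by rw [m.dg_inj q]), iA,
    if_pos (ite_ne_right_iff.1 (iA_ne.2 hu)).1, mul_one, sub_self]
  exact fun x d q k => TI_A2 h hu (by
    rw [← map_inv, ← map_mul, ← map_mul, ← q]; exact iA_ne.1 (right_ne_zero_of_mul k))

/-- the data for a virtual character of `G` -/
structure PK (h : Hy m φ g) (ψ : H → ℂ) (κ : Tor m φ → ℂ) : Prop where
  inv : ∀ a b, φ a = φ b → ψ a = ψ b
  vψ : IsGeneralizedCharacter _ ψ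
  vκ : IsGeneralizedCharacter _ κ
  oψ : ∀ y, Odd (orderOf (φ y)) → ψ y = 0
  oκ : ∀ x, Odd (orderOf x) → κ x = 0
  eq : ∀ a b, a ≠ b → ψ (m.dg (a, b)) = SS h κ (pT m φ (a, b))

/-- the induced function -/
noncomputable def Th (m : Mo H C K X) (φ : H →* G) (ψ : H → ℂ) : G → ℂ := ind φ (rA m φ ψ)

namespace PK

variable (p : PK h ψ κ)
include p

theorem gd : Gd φ (rA m φ ψ) := rA_gd ⟨p.vψ.isClassFunction, p.inv⟩

theorem mul_iA (d : C × C) : ψ (m.dg d) * iA (pT m φ d) = SS h κ (pT m φ d) * iA (pT m φ d) := by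
  by_cases n : iA (pT m φ d) = 0
  · simp [n]
  refine congrArg (· * _) (p.eq _ _ fun e => m.e1 ?_)
  have : Commute (φ (m.dg (1, m.e))) (φ m.ww) := commute_of_mem_zpowers_left (iA_ne.1 n) (Commute.map (by
    rw [show d = (d.1, d.1) from Prod.ext rfl e.symm]; exact m.cen _ _) φ)
  exact (m.sc_of_cen (h.commute_iff.1 this).eq).symm

theorem Th_eq : Th m φ ψ = ind φ ψ - ind (Tor m φ).subtype κ := by
  rw [Th, rA_eq h p.vψ.isClassFunction p.oψ, ind_sub, ind_comp]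
  refine congrArg _ ((isClassFunction_ind _ _).ext_irr (isClassFunction_ind _ _) fun χ hχ => ?_)
  rw [ci_ind_left _ _ hχ.isClassFunction, ci_ind_left _ _ hχ.isClassFunction,
    ← ci_SS h p.oκ fun x => hχ.isClassFunction x g, ← ci_comp_surjective (pT m φ) pT_surj]
  simp only [p.mul_iA]; rfl

theorem virt : IsGeneralizedCharacter G (Th m φ ψ) := p.Th_eq ▸ (p.vψ.ind φ).sub (p.vκ.ind _)

theorem ci (p' : PK h ψ' κ') : ⟪Th m φ ψ, Th m φ ψ'⟫ = ⟪ψ, ψ'⟫ - ⟪κ, SS h κ'⟫ := by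
  have : ⟪rA m φ ψ, rA m φ ψ'⟫ = ⟪rA m φ ψ, ψ'⟫ := by
    rw [ci_def, ci_def]
    exact congrArg _ (Finset.sum_congr rfl fun y _ => by unfold rA; split_ifs <;> simp)
  rw [Th, Th, phi0_ci h p'.gd rA_supp rA_supp, this, rA_eq h p.vψ.isClassFunction p.oψ, ci_sub_left,
    ci_ind_left _ _ p'.vψ.isClassFunction, ← ci_SS h p.oκ (SS_r h κ'), ← ci_comp_surjective (pT m φ) pT_surj]
  simp only [ci_def]
  refine congrArg _ (congrArg _ (Finset.sum_congr rfl fun d _ => ?_))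
  have := congrArg conj (p'.mul_iA d)
  have e : conj (iA (pT m φ d)) = iA (pT m φ d) := by simp [iA, apply_ite]
  rw [map_mul, map_mul, e] at this
  rw [p.mul_iA]
  linear_combination SS h κ (pT m φ d) * this

theorem ci_one : ⟪Th m φ ψ, fun _ => 1⟫ = ⟪ψ, fun _ => 1⟫ - ⟪κ, fun _ => 1⟫ := by
  rw [p.Th_eq, ci_sub_left, phi0_one, ci_ind_left _ _ (isClassFunction_const 1)]

omit p in
theorem one (h : Hy m φ g) : Th m φ ψ 1 = 0 := phi0_odd h rA_supp (by simp)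

theorem val : Th m φ ψ (φ (m.dg (m.e, m.e))) = ψ (m.dg (m.e, m.e)) :=
  (phi0_val h p.gd rA_supp (mem_zpowers _)).trans (if_pos (mem_zpowers _))

theorem cZ_eq : cZ (φ (m.dg (m.e, m.e))) (Th m φ ψ) = C1[φ (m.dg (m.e, m.e))].index * cZ (m.dg (1, m.e)) ψ := by
  rw [Th, phi0_cZ h p.gd rA_supp]
  refine congrArg _ (Finset.sum_congr rfl fun w _ => ?_)
  by_cases cw : IsConj (m.dg (1, m.e)) w
  swap
  · simp only [cI, if_neg cw, zero_mul]
  refine congrArg _ (Finset.sum_congr rfl fun v _ => ?_)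
  by_cases cv : IsConj (m.dg (1, m.e)) v
  swap
  · simp only [cI, if_neg cv, zero_mul]
  refine congrArg _ (ite_eq_left_iff.2 fun a => (p.oψ _ (by_contra fun n => a ?_)).symm)
  obtain ⟨_, ⟨j, rfl⟩, ii, i1⟩ := exists_inv n
  simp only [← map_zpow] at ii i1
  have d : m.det ((v * w) ^ j) = 1 := by simp [map_zpow, det_u cv, det_u cw, m.ee]
  rcases m.invol _ (h.ker_det ((map_mul _ _ _).trans ii) (by rw [map_mul, d, mul_one]))
    (fun e => i1 (by rw [e, map_one])) with e | ⟨B, e⟩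
  · exact ⟨j, (map_zpow φ _ j).symm.trans (congrArg φ e)⟩
  · exact (m.e1 ((det_u (isConj_iff.2 ⟨B, e.symm⟩)).symm.trans d)).elim

end PK

end Cfsg.Agent.B85C
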